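import Cfsg.Agent.H25.GeoLists.SpTensor.Pure
import Cfsg.Agent.H1.TensorCases

/-!
The stabiliser of a decomposition of the alternating form as (alternating form on a plane) ⊗ (symmetric form in
dimension at least five) is maximal in the symplectic group.
-/

set_option autoImplicit false
set_option linter.unusedSectionVars false

namespace Cfsg.Agent.H25.GeoLists

open scoped Matrix Kronecker
open Cfsg.Agent.H98 Module
open Cfsg.Agent.H1.TensorNM

attribute [-simp] Cfsg.Agent.H2.sympBilin_apply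

/-- A bilinear function as a linear map. -/
def bilinOf {F : Type*} [Field F] {κ : Type} [Fintype κ] [DecidableEq κ] (f : (κ → F) → (κ → F) → F)
    (hf : Cfsg.Geo.IsBilinearForm f) : (κ → F) →ₗ[F] (κ → F) →ₗ[F] F :=
  LinearMap.mk₂ F f (fun x y v => hf.add_left x y v) (fun c x v => hf.smul_left c x v)
    (fun v x y => hf.add_right v x y) (fun c v x => hf.smul_right c v x)

section

variable {ι : Type} [Fintype ι] [DecidableEq ι] {F : Type*} [Field F] {n₁ n₂ : ℕ}

theorem pu_ext {W : Type*} [AddCommGroup W] [Module F W] {f g : (Fin n₁ × Fin n₂ → F) →ₗ[F] W}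
    (h : ∀ x z, f (pure x z) = g (pure x z)) : f = g := by
  refine (Pi.basisFun F (Fin n₁ × Fin n₂)).ext fun p => ?_
  have e : (Pi.basisFun F (Fin n₁ × Fin n₂)) p = pure (Pi.single p.1 (1 : F)) (Pi.single p.2 (1 : F)) := by
    funext r
    obtain ⟨p₁, p₂⟩ := p
    obtain ⟨r₁, r₂⟩ := r
    simp [Cfsg.Agent.H1.TensorNM.pure, Pi.single_apply]
    split_ifs <;> simp_all
  rw [e, h]

/-- Tensor products of invertible maps lie in the stabiliser. -/
theorem exists_pure_elem (e : ι ≃ Fin n₁ × Fin n₂) (P : GL ι F) (a : (Fin n₁ → F) →ₗ[F] (Fin n₁ → F))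
    (b : (Fin n₂ → F) →ₗ[F] (Fin n₂ → F)) (ha : Function.Injective a) (hb : Function.Injective b) :
    ∃ g ∈ Cfsg.Geo.tensorProductSubgroup n₁ n₂ e P, ∀ x z,
      (g : Matrix ι ι F) *ᵥ tensorEquiv e P (pure x z) = tensorEquiv e P (pure (a x) (b z)) := by
  have hA : IsUnit (LinearMap.toMatrix' a) :=
    Matrix.mulVec_injective_iff_isUnit.mp
      (by rw [show (LinearMap.toMatrix' a).mulVec = ⇑a from funext fun x => LinearMap.toMatrix'_mulVec a x]; exact ha)
  have hB : IsUnit (LinearMap.toMatrix' b) :=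
    Matrix.mulVec_injective_iff_isUnit.mp
      (by rw [show (LinearMap.toMatrix' b).mulVec = ⇑b from funext fun x => LinearMap.toMatrix'_mulVec b x]; exact hb)
  set K := LinearMap.toMatrix' a ⊗ₖ LinearMap.toMatrix' b with hK
  have hKd : K.det ≠ 0 := by
    rw [hK, Matrix.det_kronecker]
    exact mul_ne_zero (pow_ne_zero _ ((Matrix.isUnit_iff_isUnit_det _).mp hA).ne_zero)
      (pow_ne_zero _ ((Matrix.isUnit_iff_isUnit_det _).mp hB).ne_zero)
  refine ⟨_, Subgroup.mem_map_of_mem _ (Subgroup.mem_map_of_mem _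
    (show Matrix.GeneralLinearGroup.mkOfDetNeZero K hKd ∈ Cfsg.Geo.kroneckerSubgroup n₁ n₂ F from
      ⟨hA.unit, hB.unit, rfl⟩)), fun x z => ?_⟩
  rw [tensorEquiv_apply, tensorEquiv_apply]
  simp only [MulEquiv.coe_toMonoidHom, MulAut.conj_apply, Units.val_mul, ← Matrix.mulVec_mulVec]
  rw [Matrix.mulVec_mulVec (v := pure x z ∘ e) (M := ((P⁻¹ : GL ι F) : Matrix ι ι F)),
    ← Units.val_mul, inv_mul_cancel, Units.val_one, Matrix.one_mulVec]
  congr 1
  show Matrix.reindex e.symm e.symm K *ᵥ _ = _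
  rw [Matrix.reindex_apply, Equiv.symm_symm, Matrix.submatrix_mulVec_equiv,
    show (pure x z ∘ e) ∘ e.symm = pure x z by funext p; simp, hK, kronecker_pure]
  simp [LinearMap.toMatrix'_mulVec]

/-- An element acting as a tensor product lies in the stabiliser. -/
theorem mem_of_pure_action (hn₁ : 0 < n₁) (hn₂ : 0 < n₂) (e : ι ≃ Fin n₁ × Fin n₂) (P g : GL ι F)
    (a : (Fin n₁ → F) →ₗ[F] (Fin n₁ → F)) (b : (Fin n₂ → F) →ₗ[F] (Fin n₂ → F))
    (h : ∀ x z, (g : Matrix ι ι F) *ᵥ tensorEquiv e P (pure x z) = tensorEquiv e P (pure (a x) (b z))) :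
    g ∈ Cfsg.Geo.tensorProductSubgroup n₁ n₂ e P := by
  have hz : ∀ x z, pure (a x) (b z) = (0 : Fin n₁ × Fin n₂ → F) → (pure x z : Fin n₁ × Fin n₂ → F) = 0 := by
    intro x z h0
    refine (tensorEquiv e P).injective (gl_mulVec_injective g ?_)
    show (g : Matrix ι ι F) *ᵥ tensorEquiv e P (pure x z) = (g : Matrix ι ι F) *ᵥ tensorEquiv e P 0
    rw [h, h0, map_zero, Matrix.mulVec_zero]
  have ha : Function.Injective a := (injective_iff_map_eq_zero a).mpr fun x hx => by
    funext i
    have := congrFun (hz x (Pi.single ⟨0, hn₂⟩ 1) (by rw [hx, map_zero, LinearMap.zero_apply])) (i, ⟨0, hn₂⟩)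
    simpa [Cfsg.Agent.H1.TensorNM.pure] using this
  have hb : Function.Injective b := (injective_iff_map_eq_zero b).mpr fun z hz' => by
    funext i
    have := congrFun (hz (Pi.single ⟨0, hn₁⟩ 1) z (by rw [hz', map_zero])) (⟨0, hn₁⟩, i)
    simpa [Cfsg.Agent.H1.TensorNM.pure] using this
  obtain ⟨g', hg', he⟩ := exists_pure_elem e P a b ha hb
  have : g = g' := gl_ext fun v => by
    obtain ⟨X, rfl⟩ := (tensorEquiv e P).surjective v
    exact congrArg (fun f => f X) (pu_ext (f := (Matrix.mulVecLin (g : Matrix ι ι F)).comp (tensorEquiv e P).toLinearMap)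
      (g := (Matrix.mulVecLin (g' : Matrix ι ι F)).comp (tensorEquiv e P).toLinearMap) fun x z => by
        simp only [LinearMap.comp_apply, LinearEquiv.coe_coe, Matrix.mulVecLin_apply, h, he])
  rw [this]
  exact hg'

end

/-- The stabiliser of a tensor decomposition `2 × b` of the alternating form is maximal. -/
theorem sp_tensor_two_maximal {m b : ℕ} {F : Type*} [Field F] [Fintype F] (hb : 5 ≤ b)
    (hodd : Odd (Fintype.card F)) (e : (Fin m ⊕ Fin m) ≃ Fin 2 × Fin b)
    (P : Matrix.GeneralLinearGroup (Fin m ⊕ Fin m) F) (f₁ : (Fin 2 → F) → (Fin 2 → F) → F)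
    (f₂ : (Fin b → F) → (Fin b → F) → F) (hf₁ : Cfsg.Geo.IsSymplecticForm f₁) (hf₂ : Cfsg.Geo.IsSymmetricForm f₂)
    (hT : Cfsg.Geo.IsTensorFormStructure id (Cfsg.sympForm m F) f₁ f₂ e P) :
    Cfsg.Geo.IsMaximalIn (Cfsg.spGL m F) (Cfsg.Geo.tensorProductSubgroup 2 b e P ⊓ Cfsg.spGL m F) := by
  classical
  obtain ⟨c, hc, hT⟩ := hT
  have h2 : (2 : F) ≠ 0 := fun h => by
    haveI : CharP F 2 := CharTwo.of_one_ne_zero_of_two_eq_zero one_ne_zero h
    exact Nat.not_even_iff_odd.mpr hodd (Nat.even_iff.mpr (FiniteField.even_card_iff_char_two.mp (ringChar.eq F 2)))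
  have hs₁ : Sesq (RingHom.id F) (-1) f₁ := ⟨hf₁.bilinear.add_left, hf₁.bilinear.smul_left,
    fun x y => by rw [hf₁.skew y x, RingHom.id_apply, neg_one_mul]⟩
  have hs₂ : Sesq (RingHom.id F) 1 f₂ := ⟨hf₂.bilinear.add_left, hf₂.bilinear.smul_left,
    fun x y => by rw [hf₂.symm y x, RingHom.id_apply, one_mul]⟩
  set ω := c • bilinOf f₁ hf₁.bilinear with hω
  set s := bilinOf f₂ hf₂.bilinear with hs
  set pu : (Fin 2 → F) →ₗ[F] (Fin b → F) →ₗ[F] (Fin m ⊕ Fin m → F) :=
    pure.compr₂ (tensorEquiv e P).toLinearMap with hpu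
  have hpu' : ∀ x u, pu x u = tensorEquiv e P (pure x u) := fun x u => rfl
  have hωnd : ∀ x, (∀ y, ω x y = 0) → x = 0 := fun x hx => by
    by_contra h0
    obtain ⟨-, y, hy⟩ := hf₁.nondegenerate x h0
    exact hy ((mul_eq_zero.mp (hx y)).resolve_left hc)
  have hωN : LinearMap.BilinForm.Nondegenerate ω := by
    refine ⟨hωnd, fun y hy => hωnd y fun x => ?_⟩
    have := hy x
    simp only [hω, LinearMap.smul_apply, bilinOf, LinearMap.mk₂_apply, smul_eq_mul] at this ⊢
    rw [hf₁.skew, mul_neg, this, neg_zero]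
  have hform : ∀ x u y v, Cfsg.Agent.H2.sympBilin m F (pu x u) (pu y v) = ω x y * s u v := by
    intro x u y v
    rw [Cfsg.Agent.H2.sympBilin_apply, hpu', hpu', tensorEquiv_apply, tensorEquiv_apply, hT]
    show c * Cfsg.Geo.formOfGram (RingHom.id F) _ _ _ = _
    rw [gram_pure hs₁ hs₂]
    simp [hω, hs, bilinOf, mul_assoc]
  set C : (Fin b → F) →ₗ[F] (Fin m ⊕ Fin m → F) →ₗ[F] (Fin 2 → F) :=
    LinearMap.mk₂ F (fun u v => (LinearMap.BilinForm.toDual ω hωN).symm
      ((Cfsg.Agent.H2.sympBilin m F v).comp (pu.flip u)))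
      (fun u u' v => by simp only [map_add, LinearMap.comp_add])
      (fun r u v => by simp only [map_smul, LinearMap.comp_smul])
      (fun u v v' => by simp only [map_add, LinearMap.add_comp])
      (fun r u v => by simp only [map_smul, LinearMap.smul_comp]) with hC
  have hinjA : ∀ g : (Fin 2 → F) →ₗ[F] (Fin 2 → F), (∀ x y, ω (g x) (g y) = ω x y) → Function.Injective g :=
    fun g hg => (injective_iff_map_eq_zero g).mpr fun x hx => hωnd x fun y => by
      rw [← hg, hx, map_zero, LinearMap.zero_apply]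
  have hsnd : ∀ u, (∀ v, s u v = 0) → u = 0 := fun u hu => by
    by_contra h0
    obtain ⟨-, y, hy⟩ := hf₂.nondegenerate u h0
    exact hy (hu y)
  have mk : ∀ M : Subgroup (GL (Fin m ⊕ Fin m) F), M ≤ Cfsg.spGL m F →
      Cfsg.Geo.tensorProductSubgroup 2 b e P ⊓ Cfsg.spGL m F ≤ M → TS M ω s pu C := by
    intro M hMK hHM
    refine
      { two := h2
        alt := fun x => by simp [hω, bilinOf, hf₁.alternating]
        sym := fun u v => hf₂.symm u v
        ωnd := hωnd
        snd := hsnd
        form := hform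
        adj := fun u v x => by
          rw [hC, LinearMap.mk₂_apply, LinearMap.BilinForm.apply_toDual_symm_apply]
          rfl
        span := fun v hv => ?_
        sp := hMK
        isom := fun g k hg hk => ?_ }
    · refine (Cfsg.Agent.H2.sympBilin_nondegenerate m F).1 v fun y => ?_
      obtain ⟨X, rfl⟩ := (tensorEquiv e P).surjective y
      exact congrArg (fun f => f X) (pu_ext (f := (Cfsg.Agent.H2.sympBilin m F v).comp (tensorEquiv e P).toLinearMap)
        (g := 0) fun x z => hv x z)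
    · obtain ⟨h, hh, he⟩ := exists_pure_elem e P g k (hinjA g hg)
        ((injective_iff_map_eq_zero k).mpr fun u hu => hsnd u fun v => by
          rw [← hk, hu, map_zero, LinearMap.zero_apply])
      refine ⟨h, hHM ⟨hh, mem_spGL.mpr fun u v => ?_⟩, fun x u => he x u⟩
      obtain ⟨X, rfl⟩ := (tensorEquiv e P).surjective u
      obtain ⟨Y, rfl⟩ := (tensorEquiv e P).surjective v
      set L := (Matrix.mulVecLin (h : Matrix (Fin m ⊕ Fin m) (Fin m ⊕ Fin m) F)).comp (tensorEquiv e P).toLinearMap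
      have key : ((Cfsg.Agent.H2.sympBilin m F).compl₁₂ L L) =
          (Cfsg.Agent.H2.sympBilin m F).compl₁₂ (tensorEquiv e P).toLinearMap (tensorEquiv e P).toLinearMap := by
        refine pu_ext fun x z => pu_ext fun y w => ?_
        simp only [LinearMap.compl₁₂_apply, L, LinearMap.comp_apply, LinearEquiv.coe_coe, Matrix.mulVecLin_apply, he]
        rw [← hpu', ← hpu', ← hpu', ← hpu', hform, hform, hg, hk]
      exact congrArg (fun f => f X Y) key
  refine isMaximalIn_of inf_le_right ?_ ?_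
  · have T := mk _ le_rfl inf_le_right
    have hA : finrank F (Fin 2 → F) = 2 := Module.finrank_fin_fun F
    obtain ⟨u, -, hu⟩ := exists_perp s T.sym h2 hsnd (Fin.elim0 : Fin 0 → _) (fun i => i.elim0) (fun i => i.elim0)
      (by rw [Module.finrank_fin_fun]; omega)
    obtain ⟨w, hw, hw0⟩ := exists_perp s T.sym h2 hsnd ![u] (fun i => by simpa using hu)
      (fun i j hij => absurd (Subsingleton.elim i j) hij) (by rw [Module.finrank_fin_fun]; omega)
    have hwu : s w u = 0 := by simpa using hw 0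
    set a : Fin 2 → F := Pi.single 0 1
    obtain ⟨a', ha'⟩ := T.exists_one (α := a) (by simp [a])
    refine ⟨spTrans (pu a u) 1, spTrans_mem _ _, fun hH => ?_⟩
    obtain ⟨G, k, hGk⟩ := exists_action e P _ hH.1
    -- the image of a pure tensor pairing with the centre is not pure
    set x := pu a' (u + w)
    have himg : (spTrans (pu a u) 1 : Matrix (Fin m ⊕ Fin m) (Fin m ⊕ Fin m) F) *ᵥ x =
        pu a' (u + w) + (-(s u u)) • pu a u := by
      rw [spTrans_mulVec, T.form, T.ωswap a a', ha', map_add, LinearMap.add_apply, hwu, add_zero, one_mul,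
        neg_one_mul]
    rw [show x = tensorEquiv e P (pure a' (u + w)) from rfl, hGk] at himg
    have e1 := congrArg (C w) himg
    have e2 := congrArg (C u) himg
    rw [← hpu', T.C_pu, map_add (C w), map_smul (C w), T.C_pu, T.C_pu, map_add s, LinearMap.add_apply,
      T.sym u w, hwu, zero_smul, smul_zero, zero_add, add_zero] at e1
    rw [← hpu', T.C_pu, map_add (C u), map_smul (C u), T.C_pu, T.C_pu, map_add s, LinearMap.add_apply, hwu,
      add_zero] at e2
    have hne : s (k (u + w)) w ≠ 0 := fun h0 => by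
      rw [h0, zero_smul] at e1
      have : a' = 0 := (smul_eq_zero.mp e1.symm).resolve_left hw0
      rw [this, map_zero] at ha'
      exact zero_ne_one ha'
    have e3 : G a' = (s (k (u + w)) w)⁻¹ • s w w • a' := by rw [← e1, inv_smul_smul₀ hne]
    rw [e3] at e2
    have := congrArg (fun z => ω z a') e2
    simp only [map_add, map_smul, map_neg, LinearMap.add_apply, LinearMap.smul_apply, LinearMap.neg_apply, T.alt, ha',
      smul_zero, smul_eq_mul, mul_zero, mul_one, zero_add] at this
    exact mul_ne_zero (neg_ne_zero.mpr hu) hu this.symm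
  · intro M hHM hMK g hg hgH
    have T := mk M hMK hHM
    rcases T.pure_or_sp_le (Module.finrank_fin_fun F) (by rw [Module.finrank_fin_fun]; exact hb) hg with h | ⟨G, k, h⟩
    · exact h
    · exact absurd ⟨mem_of_pure_action (by norm_num) (by omega) e P g G k h, hMK hg⟩ hgH

end Cfsg.Agent.H25.GeoLists
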