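import Cfsg.Agent.H25.GeoLists.SpTensor.Setup

/-!
A set of transvection centres closed under adding non-orthogonal members is everything once it contains a
connected spanning set.
-/

set_option autoImplicit false
set_option linter.unusedSectionVars false

namespace Cfsg.Agent.H25.GeoLists

open scoped Matrix
open Cfsg.Agent.H98 Module

attribute [-simp] Cfsg.Agent.H2.sympBilin_apply

variable {m : ℕ} {F : Type*} [Field F]

local notation "V" => (Fin m ⊕ Fin m → F)
local notation "β" => Cfsg.Agent.H2.sympBilin m F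

/-- A set closed under scalars and under adding non-orthogonal members, containing a spanning set with
connected non-orthogonality graph, contains every non-zero vector. -/
theorem closed_univ (h2 : (2 : F) ≠ 0) {C T : Set (Fin m ⊕ Fin m → F)}
    (hsmul : ∀ (k : F), ∀ v ∈ C, k • v ∈ C) (hadd : ∀ u ∈ C, ∀ v ∈ C, β u v ≠ 0 → u + v ∈ C)
    (hTC : T ⊆ C) (hT : ∀ v, (∀ t ∈ T, β t v = 0) → v = 0)
    (hconn : ∀ S : Set (Fin m ⊕ Fin m → F), (∃ t ∈ T, t ∈ S ∧ t ≠ 0) →
      (∀ t ∈ T, t ∈ S → ∀ t' ∈ T, β t t' ≠ 0 → t' ∈ S) → ∀ t ∈ T, t ∈ S)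
    {z₀ : Fin m ⊕ Fin m → F} (hz₀ : z₀ ∈ T) (hz₀0 : z₀ ≠ 0) (v : Fin m ⊕ Fin m → F) (hv : v ≠ 0) : v ∈ C := by
  classical
  obtain ⟨w₁, hw₁T, hw₁z⟩ : ∃ w ∈ T, β z₀ w ≠ 0 := by
    by_contra hc
    push Not at hc
    exact hz₀0 (hT z₀ fun t ht => by rw [beta_swap z₀ t, hc t ht, neg_zero])
  let Good : Submodule F V → Prop := fun S => ∀ y ∈ S, (∃ s ∈ S, β s y ≠ 0) → y ∈ C
  have hgrow : ∀ S : Submodule F V, Good S → (∃ p ∈ S, ∃ p' ∈ S, β p' p ≠ 0) → ∀ v ∈ C,
      (∃ s ∈ S, β s v ≠ 0) → Good (S ⊔ Submodule.span F {v}) := by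
    intro S hS hp v hv hsv
    have reach : ∀ (y a : V) (k : F), a ∈ C → β y a ≠ 0 → y + k • a ∈ C → y ∈ C := by
      intro y a k ha hne hm
      rcases eq_or_ne k 0 with rfl | hk
      · simpa using hm
      have := hadd _ hm _ (hsmul (-k) a ha) (by simp [hk, hne, beta_self])
      rwa [neg_smul, ← sub_eq_add_neg, add_sub_cancel_right] at this
    obtain ⟨a, ha, hav, c, hc, hca⟩ : ∃ a ∈ S, β a v ≠ 0 ∧ ∃ c ∈ S, β c a ≠ 0 := by
      obtain ⟨a, ha, hav⟩ := hsv
      obtain ⟨p, hpS, p', hp', hpp⟩ := hp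
      by_cases hra : ∃ c ∈ S, β c a ≠ 0
      · exact ⟨a, ha, hav, hra⟩
      push Not at hra
      by_cases hpv : β p v = 0
      · exact ⟨a + p, S.add_mem ha hpS, by simpa [hpv] using hav, p', hp', by simpa [hra p' hp'] using hpp⟩
      · exact ⟨p, hpS, hpv, p', hp', hpp⟩
    have haC : a ∈ C := hS a ha ⟨c, hc, hca⟩
    -- vectors meeting the new one
    have case1 : ∀ x ∈ S, ∀ t : F, β x v ≠ 0 → x + t • v ∈ C := by
      have sub : ∀ x ∈ S, ∀ t : F, β x v ≠ 0 → (∃ s ∈ S, β s x ≠ 0) → x + t • v ∈ C := fun x hx t hxv hrad =>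
        reach _ v (-t) hv (by simpa [beta_self] using hxv)
          (by rw [add_assoc, ← add_smul, add_neg_cancel, zero_smul, add_zero]; exact hS x hx hrad)
      intro x hx
      by_cases hrad : ∃ s ∈ S, β s x ≠ 0
      · exact fun t hxv => sub x hx t hxv hrad
      push Not at hrad
      have main : ∀ t : F, t ≠ 0 → β x v ≠ 0 → x + t • v ∈ C := by
        intro t ht hxv
        obtain ⟨k, hk, hkv⟩ : ∃ k : F, k ≠ 0 ∧ β x v + k * β a v ≠ 0 := by
          by_cases h : β x v + 1 * β a v = 0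
          · refine ⟨-1, by simp, fun h' => hxv ?_⟩
            exact (mul_eq_zero.mp (show (2 : F) * β x v = 0 by linear_combination h + h')).resolve_left h2
          · exact ⟨1, one_ne_zero, h⟩
        refine reach _ a k haC ?_ ?_
        · have hxa : β x a = 0 := by rw [beta_swap a x, hrad a ha, neg_zero]
          simpa [hxa, ht, beta_swap a v] using hav
        · rw [show x + t • v + k • a = (x + k • a) + t • v by abel]
          exact sub _ (S.add_mem hx (S.smul_mem k ha)) t (by simpa using hkv)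
            ⟨c, hc, by simpa [hrad c hc, hk] using hca⟩
      intro t hxv
      rcases eq_or_ne t 0 with rfl | ht
      · rw [zero_smul, add_zero]
        exact reach _ v 1 hv hxv (main 1 one_ne_zero hxv)
      · exact main t ht hxv
    intro y hy hy'
    obtain ⟨x, hx, s, hs, rfl⟩ := Submodule.mem_sup.mp hy
    obtain ⟨t, rfl⟩ := Submodule.mem_span_singleton.mp hs
    by_cases hxv : β x v = 0
    swap
    · exact case1 x hx t hxv
    obtain ⟨q, hq, hqy⟩ := hy'
    obtain ⟨s, hsS, q', hq', rfl⟩ := Submodule.mem_sup.mp hq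
    obtain ⟨t', rfl⟩ := Submodule.mem_span_singleton.mp hq'
    have hvy : β v (x + t • v) = 0 := by simp [beta_swap x v, hxv, beta_self]
    have hsy : β s (x + t • v) ≠ 0 := by
      simp only [map_add, map_smul, LinearMap.add_apply, LinearMap.smul_apply, smul_eq_mul, beta_self] at hqy hvy ⊢
      intro h; refine hqy ?_; linear_combination h + t' * hvy
    -- a good vector pairing with `y`
    obtain ⟨s', hs', hs'y, hs'v, hs'r⟩ : ∃ s' ∈ S, β s' (x + t • v) ≠ 0 ∧ β s' v ≠ 0 ∧ ∃ c ∈ S, β c s' ≠ 0 := by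
      by_cases hay : β a (x + t • v) = 0
      swap
      · exact ⟨a, ha, hay, hav, c, hc, hca⟩
      suffices ∃ k : F, β s v + k * β a v ≠ 0 ∧ β c s + k * β c a ≠ 0 by
        obtain ⟨k, k1, k2⟩ := this
        refine ⟨s + k • a, S.add_mem hsS (S.smul_mem k ha), ?_, by simpa using k1, c, hc, by simpa using k2⟩
        simp only [map_add, map_smul, LinearMap.add_apply, LinearMap.smul_apply, smul_eq_mul] at hay hsy ⊢
        intro h; refine hsy ?_; linear_combination h - k * hay
      by_contra hcon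
      push Not at hcon
      have three : ∀ k k' : F, k ≠ k' → β s v + k * β a v = 0 → β s v + k' * β a v ≠ 0 := fun k k' hkk h1 h2 =>
        hav ((mul_eq_zero.mp (show (k - k') * β a v = 0 by linear_combination h1 - h2)).resolve_left (sub_ne_zero.mpr hkk))
      have three' : ∀ k k' : F, k ≠ k' → β c s + k * β c a = 0 → β c s + k' * β c a ≠ 0 := fun k k' hkk h1 h2 =>
        hca ((mul_eq_zero.mp (show (k - k') * β c a = 0 by linear_combination h1 - h2)).resolve_left (sub_ne_zero.mpr hkk))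
      have n01 : (0 : F) ≠ 1 := zero_ne_one
      have n02 : (0 : F) ≠ -1 := fun h => n01 (by linear_combination -h)
      have n12 : (1 : F) ≠ -1 := fun h => h2 (by linear_combination h)
      by_cases a0 : β s v + 0 * β a v = 0
      · exact three' 1 (-1) n12 (hcon 1 (three 0 1 n01 a0)) (hcon (-1) (three 0 (-1) n02 a0))
      by_cases a1 : β s v + 1 * β a v = 0
      · exact three' 0 (-1) n02 (hcon 0 a0) (hcon (-1) (three 1 (-1) n12 a1))
      · exact three' 0 1 n01 (hcon 0 a0) (hcon 1 a1)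
    refine reach _ s' 1 (hS s' hs' hs'r) (fun h => hs'y (by rw [beta_swap (x + t • v) s', h, neg_zero])) ?_
    rw [one_smul, show x + t • v + s' = (x + s') + t • v by abel]
    exact case1 _ (S.add_mem hx hs') t (by simpa [hxv] using hs'v)
  obtain ⟨S, ⟨hS, hzS, hwS⟩, hmax⟩ :=
    (wellFounded_gt : WellFounded ((· > ·) : Submodule F V → Submodule F V → Prop)).has_min
      {S | Good S ∧ z₀ ∈ S ∧ w₁ ∈ S} ⟨Submodule.span F {z₀, w₁}, fun y hy _ => by
        obtain ⟨a, b, rfl⟩ := Submodule.mem_span_pair.mp hy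
        rcases eq_or_ne a 0 with rfl | ha
        · rw [zero_smul, zero_add]; exact hsmul b _ (hTC hw₁T)
        rcases eq_or_ne b 0 with rfl | hb
        · rw [zero_smul, add_zero]; exact hsmul a _ (hTC hz₀)
        exact hadd _ (hsmul a _ (hTC hz₀)) _ (hsmul b _ (hTC hw₁T)) (by simp [hw₁z, ha, hb]),
        Submodule.subset_span (by simp), Submodule.subset_span (by simp)⟩
  have hp : ∃ p ∈ S, ∃ p' ∈ S, β p' p ≠ 0 := ⟨w₁, hwS, z₀, hzS, hw₁z⟩
  have hsat : ∀ t ∈ C, (∃ s ∈ S, β s t ≠ 0) → t ∈ S := fun t ht h => by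
    by_contra hn
    refine hmax (S ⊔ Submodule.span F {t}) ⟨hgrow S hS hp t ht h,
      Submodule.mem_sup_left hzS, Submodule.mem_sup_left hwS⟩ ?_
    refine lt_of_le_of_ne le_sup_left fun e => hn ?_
    rw [e]; exact Submodule.mem_sup_right (Submodule.mem_span_singleton_self t)
  have hall := hconn (S : Set V) ⟨z₀, hz₀, hzS, hz₀0⟩
    fun t _ htS t' ht' hne => hsat t' (hTC ht') ⟨t, htS, hne⟩
  have hperp : ∀ x : V, (∀ s ∈ S, β s x = 0) → x = 0 := fun x hx => hT x fun t ht => hx t (hall t ht)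
  obtain ⟨w, hw, hwv⟩ : ∃ w ∈ S, β w v ≠ 0 := by
    by_contra hc
    push Not at hc
    exact hv (hperp v hc)
  have hST : ∀ x : V, x ∈ S := by
    intro x
    have htop : S = ⊤ := by
      have h1 : (β).orthogonal S = ⊥ := (Submodule.eq_bot_iff _).mpr fun x hx => hperp x hx
      rw [← LinearMap.BilinForm.orthogonal_orthogonal (B := β) (Cfsg.Agent.H2.sympBilin_nondegenerate m F)
        (Cfsg.Agent.H2.sympBilin_isAlt m F).isRefl S, h1, LinearMap.BilinForm.orthogonal_bot]
    rw [htop]; exact Submodule.mem_top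
  exact hS v (hST v) ⟨w, hw, hwv⟩

end Cfsg.Agent.H25.GeoLists
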