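import Cfsg.Agent.H25.GeoLists.SpTensor.Planes

/-!
A plane all of whose members have one kernel leads to a root element, for a plane as first factor.
-/

set_option autoImplicit false
set_option linter.unusedSectionVars false

namespace Cfsg.Agent.H25.GeoLists.TS

open scoped Matrix
open Cfsg.Agent.H98 Module

attribute [-simp] Cfsg.Agent.H2.sympBilin_apply

variable {m : ℕ} {F : Type*} [Field F] {A B : Type*} [AddCommGroup A] [Module F A] [AddCommGroup B] [Module F B]
variable {M : Subgroup (GL (Fin m ⊕ Fin m) F)} {ω : A →ₗ[F] A →ₗ[F] F} {s : B →ₗ[F] B →ₗ[F] F}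
  {pu : A →ₗ[F] B →ₗ[F] (Fin m ⊕ Fin m → F)} {C : B →ₗ[F] (Fin m ⊕ Fin m → F) →ₗ[F] A}
  [Fintype F] [FiniteDimensional F A] [FiniteDimensional F B]

local notation "V" => (Fin m ⊕ Fin m → F)
local notation "Mat" => Matrix (Fin m ⊕ Fin m) (Fin m ⊕ Fin m) F
local notation "β" => Cfsg.Agent.H2.sympBilin m F

theorem snd' (T : TS M ω s pu C) : LinearMap.BilinForm.Nondegenerate s :=
  ⟨T.snd, fun y hy => T.snd y fun x => by rw [T.sym]; exact hy x⟩

theorem srefl (T : TS M ω s pu C) : LinearMap.BilinForm.IsRefl s :=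
  fun x y h => by rw [T.sym]; exact h

theorem mem_perp {K : Submodule F B} {v : B} :
    v ∈ LinearMap.BilinForm.orthogonal s K ↔ ∀ k ∈ K, s k v = 0 :=
  Iff.rfl

/-- Vectors killed by a subspace lie over its orthogonal. -/
theorem mem_tensor (T : TS M ω s pu C) (hA : finrank F A = 2) (K : Submodule F B) {v : V}
    (hv : ∀ k ∈ K, C k v = 0) {a a' : A} (haa : ω a a' = 1) :
    ∃ σ₁ ∈ LinearMap.BilinForm.orthogonal s K, ∃ σ₂ ∈ LinearMap.BilinForm.orthogonal s K,
      v = pu a σ₁ + pu a' σ₂ := by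
  have hs : ∀ x : A, ∃ σ, ∀ u, s σ u = ω (C u v) x := fun x =>
    ⟨(LinearMap.BilinForm.toDual s T.snd').symm ((ω.flip x).comp (C.flip v)),
      fun u => LinearMap.BilinForm.apply_toDual_symm_apply _ u⟩
  obtain ⟨σ₁, h₁⟩ := hs a'
  obtain ⟨σ₂, h₂⟩ := hs a
  refine ⟨σ₁, fun k hk => ?_, -σ₂, neg_mem fun k hk => ?_, T.eq_of_C fun u => ?_⟩
  · show s k σ₁ = 0
    rw [T.sym, h₁, hv k hk, map_zero, LinearMap.zero_apply]
  · show s k σ₂ = 0
    rw [T.sym, h₂, hv k hk, map_zero, LinearMap.zero_apply]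
  · conv_lhs => rw [T.expand2 hA haa (C u v)]
    rw [map_add, T.C_pu, T.C_pu, map_neg, LinearMap.neg_apply, h₁, h₂, neg_smul, sub_eq_add_neg]

/-- An endomorphism with `ω (f x) x = 0` is scalar. -/
theorem scalar_of_alt (T : TS M ω s pu C) (hA : finrank F A = 2) {f : A →ₗ[F] A} (h : ∀ x, ω (f x) x = 0) :
    ∃ c : F, ∀ x, f x = c • x := by
  haveI : Nontrivial A := Module.nontrivial_of_finrank_pos (R := F) (by omega)
  obtain ⟨a, ha⟩ := exists_ne (0 : A)
  obtain ⟨a', haa⟩ := T.exists_one ha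
  refine ⟨ω (f a) a', fun x => ?_⟩
  have e1 := T.expand2 hA haa (f a)
  rw [h a, zero_smul, sub_zero] at e1
  have ha'a : ω a' a = -1 := by rw [T.ωswap a a', haa]
  have e2 := T.expand2 hA haa (f a')
  rw [h a', zero_smul, zero_sub] at e2
  have hsum := h (a + a')
  simp only [map_add, LinearMap.add_apply, h a, h a', zero_add, add_zero] at hsum
  conv_lhs => rw [T.expand2 hA haa x, map_sub, map_smul, map_smul, e1, e2]
  conv_rhs => rw [T.expand2 hA haa x]
  rw [show ω (f a') a = -ω (f a) a' from eq_neg_of_add_eq_zero_left hsum]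
  module

theorem finrank_plKer (T : TS M ω s pu C) (hA : finrank F A = 2) {p q : V} (hn : NoKer C pu p q) :
    finrank F B ≤ finrank F (plKer C p q) + 2 := by
  have h1 : plKer C p q = LinearMap.ker (C.flip p) := by
    refine le_antisymm inf_le_left fun k hk => mem_plKer.mpr ?_
    exact hn.1 1 0 k (by simp) (by simpa using hk)
  rw [h1]
  have h2 := (C.flip p).finrank_range_add_finrank_ker
  have h3 := Submodule.finrank_le (LinearMap.range (C.flip p))
  omega

theorem proj_plane {p q : V} (hpq : β p q = 1) {y : V} (hy : y ∈ Submodule.span F ({p, q} : Set V)) :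
    proj p q y = y := by
  obtain ⟨c, d, rfl⟩ := Submodule.mem_span_pair.mp hy
  simp [proj_apply, beta_self, beta_swap p q, hpq]

theorem proj_mem (p q y : V) : proj p q y ∈ Submodule.span F ({p, q} : Set V) :=
  Submodule.mem_span_pair.mpr ⟨β y q, -β y p, by rw [proj_apply, neg_smul, sub_eq_add_neg]⟩

theorem proj_eq_zero (T : TS M ω s pu C) {p q : V} {r : B} (hp : C r p = 0) (hq : C r q = 0) (x : A) :
    proj p q (pu x r) = 0 := by
  rw [proj_apply, T.beta_pu, T.beta_pu, hp, hq, map_zero, zero_smul, zero_smul, sub_zero]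

/-- The degenerate case. -/
theorem sp_le_of_degenerate (T : TS M ω s pu C) (hA : finrank F A = 2) (hB : 5 ≤ finrank F B) {p q : V}
    (hP : Pl M p q) (hn : NoKer C pu p q) {r₀ : B} (hr : r₀ ≠ 0) (hrK : r₀ ∈ plKer C p q)
    (hrad : ∀ k ∈ plKer C p q, s r₀ k = 0) : Cfsg.spGL m F ≤ M := by
  classical
  set K := plKer C p q with hKdef
  set S := LinearMap.BilinForm.orthogonal s K with hSdef
  obtain ⟨hpq, I, hI, hIv⟩ := hP
  haveI : Nontrivial A := Module.nontrivial_of_finrank_pos (R := F) (by omega)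
  obtain ⟨a₀, ha₀⟩ := exists_ne (0 : A)
  obtain ⟨a₁, ha01⟩ := T.exists_one ha₀
  have hS2 : finrank F S ≤ 2 := by
    rw [hSdef, LinearMap.BilinForm.finrank_orthogonal T.snd']
    have : finrank F B ≤ finrank F K + 2 := T.finrank_plKer hA hn
    have := Submodule.finrank_le K
    omega
  have hrS : r₀ ∈ S := fun k hk => by
    show s k r₀ = 0
    rw [T.sym]; exact hrad k hk
  -- a non-singular vector over the kernel
  obtain ⟨t, ht, ht0⟩ : ∃ t ∈ S, s t t ≠ 0 := by
    by_contra hc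
    push Not at hc
    obtain ⟨σ₁, h1, σ₂, h2, ep⟩ := T.mem_tensor hA K (v := p) (fun k hk => (mem_plKer.mp hk).1) ha01
    obtain ⟨τ₁, h3, τ₂, h4, eq'⟩ := T.mem_tensor hA K (v := q) (fun k hk => (mem_plKer.mp hk).2) ha01
    have hz := fun u hu v hv => apply_eq_zero_of_singular s T.sym T.two hc (u := u) (v := v) hu hv
    rw [ep, eq'] at hpq
    simp only [map_add, LinearMap.add_apply, T.form, hz _ h1 _ h3, hz _ h1 _ h4, hz _ h2 _ h3, hz _ h2 _ h4,
      mul_zero, add_zero] at hpq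
    exact zero_ne_one hpq
  have htr : s t r₀ = 0 := by
    by_contra hne
    -- the radical vector lies in the kernel, which is orthogonal to `t`
    exact hne (by rw [T.sym]; exact ht r₀ hrK)
  have htK : t ∉ K := fun h => ht0 (ht t h)
  have hrr : s r₀ r₀ = 0 := hrad r₀ hrK
  have hSspan : ∀ σ ∈ S, ∃ e f : F, σ = e • t + f • r₀ := by
    have hli : LinearIndependent F ![(⟨t, ht⟩ : S), ⟨r₀, hrS⟩] := by
      rw [LinearIndependent.pair_iff]
      intro c d h
      have h' : c • t + d • r₀ = 0 := congrArg Subtype.val h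
      have h1 := congrArg (s t) h'
      simp [htr, ht0] at h1
      subst h1
      simp [hr] at h'
      exact ⟨rfl, h'⟩
    have hc : finrank F S = 2 := le_antisymm hS2 (by simpa using hli.fintype_card_le_finrank)
    intro σ hσ
    obtain ⟨c, hc'⟩ := (Submodule.mem_span_range_iff_exists_fun F).mp
      (show (⟨σ, hσ⟩ : S) ∈ Submodule.span F (Set.range ![(⟨t, ht⟩ : S), ⟨r₀, hrS⟩]) from
        (hli.span_eq_top_of_card_eq_finrank (by simp [hc])) ▸ trivial)
    exact ⟨c 0, c 1, by simpa [Fin.sum_univ_two] using (congrArg Subtype.val hc').symm⟩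
  have hdec : ∀ v, (∀ k ∈ K, C k v = 0) → ∃ α ρ : A, v = pu α t + pu ρ r₀ := by
    intro v hv
    obtain ⟨σ₁, h1, σ₂, h2, e⟩ := T.mem_tensor hA K hv ha01
    obtain ⟨e₁, f₁, rfl⟩ := hSspan σ₁ h1
    obtain ⟨e₂, f₂, rfl⟩ := hSspan σ₂ h2
    refine ⟨e₁ • a₀ + e₂ • a₁, f₁ • a₀ + f₂ • a₁, ?_⟩
    rw [e]
    simp only [map_add, map_smul, LinearMap.add_apply, LinearMap.smul_apply]
    module
  obtain ⟨αp, ρp, ep⟩ := hdec p fun k hk => (mem_plKer.mp hk).1
  obtain ⟨αq, ρq, eq'⟩ := hdec q fun k hk => (mem_plKer.mp hk).2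
  set n := s t t with hndef
  have hrt : s r₀ t = 0 := by rw [T.sym]; exact htr
  have hαα : ω αp αq * n = 1 := by
    conv_rhs => rw [← hpq, ep, eq']
    simp only [map_add, LinearMap.add_apply, T.form, htr, hrt, hrr, mul_zero, add_zero, hndef]
  let ψ : A →ₗ[F] A := n • ((ω.flip αq).smulRight ρp - (ω.flip αp).smulRight ρq)
  have hαq : ω αp αq ≠ 0 := fun h => by rw [h, zero_mul] at hαα; exact zero_ne_one hαα
  have hplane : ∀ a, pu a t + pu (ψ a) r₀ ∈ Submodule.span F ({p, q} : Set V) := by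
    intro a
    refine Submodule.mem_span_pair.mpr ⟨n * ω a αq, -(n * ω a αp), ?_⟩
    have he : a = (n * ω a αq) • αp + (-(n * ω a αp)) • αq := by
      have h1 : ω αp (n • αq) = 1 := by rw [map_smul, smul_eq_mul, mul_comm]; exact hαα
      conv_lhs => rw [T.expand2 hA h1 a]
      rw [map_smul, smul_eq_mul]
      module
    conv_rhs => rw [he]
    rw [ep, eq']
    simp only [map_add, map_smul, map_sub, map_neg, LinearMap.add_apply, LinearMap.smul_apply, LinearMap.sub_apply,
      LinearMap.neg_apply, ψ, LinearMap.smulRight_apply, LinearMap.flip_apply, smul_eq_mul, T.alt, T.ωswap αp αq]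
    match_scalars
    all_goals first
      | linear_combination (-(n * ω a αq)) * hαα
      | linear_combination (n * ω a αp) * hαα
      | ring1
  have hψ : ¬ ∃ c : F, ∀ a, ψ a = c • a := by
    rintro ⟨c, hc⟩
    refine hn.2 ⟨t + c • r₀, fun h => htK ?_, fun a => ?_⟩
    · rw [add_eq_zero_iff_eq_neg] at h
      rw [h]
      exact K.neg_mem (K.smul_mem c hrK)
    · rw [map_add, map_smul, ← LinearMap.smul_apply, ← map_smul, ← hc a]
      exact hplane a
  -- the unipotent elements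
  let E : GL (Fin m ⊕ Fin m) F → (A →ₗ[F] A) → Prop := fun h N =>
    (∀ b, (h : Mat) *ᵥ pu b r₀ = pu b r₀) ∧ ∀ a, (h : Mat) *ᵥ pu a t = pu a t + pu (N a) r₀
  have hEmul : ∀ h h' N N', E h N → E h' N' → E (h * h') (N + N') := by
    rintro h h' N N' ⟨e1, e2⟩ ⟨e1', e2'⟩
    refine ⟨fun b => ?_, fun a => ?_⟩
    · rw [Units.val_mul, ← Matrix.mulVec_mulVec, e1', e1]
    · rw [Units.val_mul, ← Matrix.mulVec_mulVec, e2', Matrix.mulVec_add, e2, e1, LinearMap.add_apply, map_add,
        LinearMap.add_apply, add_assoc]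
  have hEinv : ∀ h N, E h N → E h⁻¹ (-N) := by
    rintro h N ⟨e1, e2⟩
    refine ⟨fun b => ?_, fun a => ?_⟩
    · conv_lhs => rw [← e1 b, gl_inv_mulVec]
    · have := congrArg (((h⁻¹ : GL (Fin m ⊕ Fin m) F) : Mat) *ᵥ ·) (e2 (a))
      simp only [gl_inv_mulVec, Matrix.mulVec_add] at this
      have hb : ((h⁻¹ : GL (Fin m ⊕ Fin m) F) : Mat) *ᵥ pu (N a) r₀ = pu (N a) r₀ := by
        conv_lhs => rw [← e1 (N a), gl_inv_mulVec]
      rw [hb] at this
      rw [LinearMap.neg_apply, map_neg, LinearMap.neg_apply, ← sub_eq_add_neg, eq_sub_iff_add_eq]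
      exact this.symm
  obtain ⟨z, hz, hzv⟩ := T.exists_z ht0
  have hU : E (I * z) ((2 : F) • ψ) := by
    obtain ⟨hrp, hrq⟩ := mem_plKer.mp hrK
    have hIr : ∀ b, (I : Mat) *ᵥ pu b r₀ = pu b r₀ := fun b => by
      rw [hIv, T.proj_eq_zero hrp hrq, smul_zero, sub_zero]
    refine ⟨fun b => ?_, fun a => ?_⟩
    · rw [Units.val_mul, ← Matrix.mulVec_mulVec, hzv, T.C_pu, hrt, zero_smul, map_zero, LinearMap.zero_apply,
        smul_zero, sub_zero, hIr]
    · have hx := hIv (pu a t + pu (ψ a) r₀)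
      rw [proj_plane hpq (hplane a), Matrix.mulVec_add, hIr] at hx
      have hIat : (I : Mat) *ᵥ pu a t = -(pu a t) - (2 : F) • pu (ψ a) r₀ := by
        rw [← eq_sub_iff_add_eq] at hx
        rw [hx]; module
      have hzat : (z : Mat) *ᵥ pu a t = -(pu a t) := by
        rw [hzv, T.C_pu, map_smul, LinearMap.smul_apply, smul_smul, div_mul_cancel₀ _ ht0]
        module
      rw [Units.val_mul, ← Matrix.mulVec_mulVec, hzat, Matrix.mulVec_neg, hIat]
      simp only [LinearMap.smul_apply, map_smul]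
      module
  obtain ⟨α, hα⟩ : ∃ α, ω ((2 : F) • ψ α) α ≠ 0 := by
    by_contra hc
    push Not at hc
    obtain ⟨c, hc'⟩ := T.scalar_of_alt hA (f := ψ) fun x => by
      have := hc x
      rw [map_smul, LinearMap.smul_apply, smul_eq_mul] at this
      exact (mul_eq_zero.mp this).resolve_left T.two
    exact hψ ⟨c, hc'⟩
  set N := (2 : F) • ψ with hN
  have hα0 : α ≠ 0 := fun h => hα (by simp [h])
  obtain ⟨h₁, hh₁, e₁⟩ := T.isom (tv ω α 1) LinearMap.id (T.tv_isom α 1) (fun _ _ => rfl)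
  have htv : ∀ x, tv ω α 1 (tv ω α (-1) x) = x := fun x => by
    simp only [tv_apply, map_add, map_smul, LinearMap.add_apply, LinearMap.smul_apply, smul_eq_mul, T.alt]
    module
  have htv' : ∀ x, tv ω α (-1) (tv ω α 1 x) = x := fun x => by
    simp only [tv_apply, map_add, map_smul, LinearMap.add_apply, LinearMap.smul_apply, smul_eq_mul, T.alt]
    module
  have hinv : ∀ x u, ((h₁⁻¹ : GL (Fin m ⊕ Fin m) F) : Mat) *ᵥ pu x u = pu (tv ω α (-1) x) u := by
    intro x u
    have := congrArg (((h₁⁻¹ : GL (Fin m ⊕ Fin m) F) : Mat) *ᵥ ·) (e₁ (tv ω α (-1) x) u)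
    simp only [gl_inv_mulVec, htv, LinearMap.id_apply] at this
    exact this.symm
  have hE1 : E (h₁ * (I * z) * h₁⁻¹) (tv ω α 1 ∘ₗ N ∘ₗ tv ω α (-1)) := by
    refine ⟨fun b => ?_, fun a => ?_⟩
    · rw [Units.val_mul, Units.val_mul, ← Matrix.mulVec_mulVec, ← Matrix.mulVec_mulVec, hinv, hU.1, e₁, htv,
        LinearMap.id_apply]
    · rw [Units.val_mul, Units.val_mul, ← Matrix.mulVec_mulVec, ← Matrix.mulVec_mulVec, hinv, hU.2,
        Matrix.mulVec_add, e₁, e₁, htv]
      rfl
  have hE2 : E (h₁⁻¹ * (I * z) * h₁) (tv ω α (-1) ∘ₗ N ∘ₗ tv ω α 1) := by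
    refine ⟨fun b => ?_, fun a => ?_⟩
    · rw [Units.val_mul, Units.val_mul, ← Matrix.mulVec_mulVec, ← Matrix.mulVec_mulVec, e₁, LinearMap.id_apply,
        hU.1, hinv, htv']
    · rw [Units.val_mul, Units.val_mul, ← Matrix.mulVec_mulVec, ← Matrix.mulVec_mulVec, e₁, LinearMap.id_apply,
        hU.2, Matrix.mulVec_add, hinv, hinv, htv']
      rfl
  set W := h₁ * (I * z) * h₁⁻¹ * (h₁⁻¹ * (I * z) * h₁) * (I * z)⁻¹ * (I * z)⁻¹ with hW
  have hUM : I * z ∈ M := M.mul_mem hI hz
  have hWM : W ∈ M := M.mul_mem (M.mul_mem (M.mul_mem (M.mul_mem (M.mul_mem hh₁ hUM) (M.inv_mem hh₁))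
    (M.mul_mem (M.mul_mem (M.inv_mem hh₁) hUM) hh₁)) (M.inv_mem hUM)) (M.inv_mem hUM)
  have hEW := hEmul _ _ _ _ (hEmul _ _ _ _ (hEmul _ _ _ _ hE1 hE2) (hEinv _ _ hU)) (hEinv _ _ hU)
  rw [← hW] at hEW
  have hWt : ∀ a, (W : Mat) *ᵥ pu a t = pu a t + pu (-(2 * ω a α * ω (N α) α) • α) r₀ := fun a => by
    rw [hEW.2]
    congr 2
    simp only [LinearMap.add_apply, LinearMap.comp_apply, LinearMap.neg_apply, tv_apply, map_add, map_smul,
      LinearMap.smul_apply, smul_eq_mul, map_neg]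
    module
  -- the new plane
  obtain ⟨α', hαα'⟩ := T.exists_one hα0
  obtain ⟨w, -, hwt, hwr, hww⟩ : ∃ w, w ≠ 0 ∧ s w t = 0 ∧ s w r₀ ≠ 0 ∧ s w w ≠ 0 := by
    obtain ⟨w₁, hw₁, hw₁0⟩ := exists_perp s T.sym T.two T.snd ![t] (fun i => by simpa [hndef] using ht0)
      (fun i j hij => absurd (Subsingleton.elim i j) hij) (by omega)
    have hle' : ¬ LinearMap.ker (s t) ≤ LinearMap.ker (s r₀) := fun hle => by
      refine hr (T.snd r₀ fun u => ?_)
      have hk : u - (s t u / n) • t ∈ LinearMap.ker (s t) := by simp [← hndef, div_mul_cancel₀ _ ht0]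
      have := LinearMap.mem_ker.mp (hle hk)
      rwa [map_sub, map_smul, hrt, smul_zero, sub_zero] at this
    obtain ⟨w, hw, hwr, hw0⟩ := exists_nonsingular_notMem s T.sym T.two (LinearMap.ker (s t)) (LinearMap.ker (s r₀))
      ⟨w₁, by rw [LinearMap.mem_ker, T.sym]; simpa using hw₁ 0, hw₁0⟩ hle'
    exact ⟨w, fun h => hw0 (by simp [h]), by rw [T.sym]; exact hw, fun h => hwr (by
      rw [LinearMap.mem_ker, T.sym]; exact h), hw0⟩
  refine T.sp_le_of_pair hB (T.pl_image hA hWM ht0 hαα') hww ?_ ?_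
  · rw [hWt, map_add, T.C_pu, T.C_pu, T.sym t w, hwt, zero_smul, zero_add, T.alt, mul_zero, zero_mul, neg_zero,
      zero_smul, smul_zero]
  · rw [map_smul, hWt, map_add, T.C_pu, T.C_pu, T.sym t w, hwt, zero_smul, zero_add, T.sym r₀ w, T.ωswap α α',
      hαα', smul_smul, smul_smul]
    exact smul_ne_zero (mul_ne_zero (mul_ne_zero (inv_ne_zero ht0) hwr)
      (by
        simp only [mul_neg, mul_one, neg_mul, neg_neg]
        exact mul_ne_zero T.two hα)) hα0

/-- A pure image of the basic plane of `t` gives a pure plane. -/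
theorem not_pure_image (T : TS M ω s pu C) {p q : V} (hn : NoKer C pu p q) {t : B} (ht : t ∉ plKer C p q) {σ : B}
    (h : ∀ a, pu a t - (2 : F) • proj p q (pu a t) = pu a σ) : False := by
  by_cases hσ : t - σ = 0
  · refine ht ?_
    have hz : ∀ a, proj p q (pu a t) = 0 := fun a => by
      have := h a
      rw [← sub_eq_zero.mp hσ, sub_eq_self] at this
      exact (smul_eq_zero.mp this).resolve_left T.two
    by_contra htK
    have hlin : ∀ a, ω a (C t q) = 0 ∧ ω a (C t p) = 0 := fun a => by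
      have h0 := hz a
      rw [proj_apply, T.beta_pu, T.beta_pu, sub_eq_add_neg, ← neg_smul] at h0
      by_contra hne
      have := hn.1 (ω a (C t q)) (-ω a (C t p)) t (fun hcd => hne ⟨hcd.1, neg_eq_zero.mp hcd.2⟩)
        (by rw [h0, map_zero])
      exact htK (mem_plKer.mpr this)
    refine htK (mem_plKer.mpr ⟨?_, ?_⟩)
    · exact T.ωnd _ fun y => by rw [T.ωswap y, (hlin y).2, neg_zero]
    · exact T.ωnd _ fun y => by rw [T.ωswap y, (hlin y).1, neg_zero]
  · refine hn.2 ⟨t - σ, hσ, fun a => ?_⟩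
    have e : pu a (t - σ) = (2 : F) • proj p q (pu a t) := by
      rw [map_sub, ← h a, sub_sub_cancel]
    rw [e]
    exact Submodule.smul_mem _ _ (proj_mem p q _)

/-- The non-degenerate case. -/
theorem sp_le_of_nondegenerate (T : TS M ω s pu C) (hA : finrank F A = 2) (hB : 5 ≤ finrank F B) {p q : V}
    (hP : Pl M p q) (hn : NoKer C pu p q)
    (hrad : ∀ r ∈ plKer C p q, (∀ k ∈ plKer C p q, s r k = 0) → r = 0) : Cfsg.spGL m F ≤ M := by
  classical
  set K := plKer C p q with hKdef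
  set S := LinearMap.BilinForm.orthogonal s K with hSdef
  obtain ⟨hpq, I, hI, hIv⟩ := hP
  haveI : Nontrivial A := Module.nontrivial_of_finrank_pos (R := F) (by omega)
  obtain ⟨a₀, ha₀⟩ := exists_ne (0 : A)
  obtain ⟨a₁, ha01⟩ := T.exists_one ha₀
  have hfK : finrank F B ≤ finrank F K + 2 := T.finrank_plKer hA hn
  have hS2 : finrank F S ≤ 2 := by
    rw [hSdef, LinearMap.BilinForm.finrank_orthogonal T.snd']
    omega
  have hSK : ∀ v ∈ S, v ∈ K → v = 0 := fun v hv hvK => hrad v hvK fun k hk => by rw [T.sym]; exact hv k hk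
  have hcompl : IsCompl K S := by
    rw [hSdef, LinearMap.BilinForm.isCompl_orthogonal_iff_disjoint T.srefl]
    rw [Submodule.disjoint_def]
    exact fun v hvK hv => hSK v hv hvK
  have hK3 : 3 ≤ finrank F K := by omega
  obtain ⟨t, ht, ht0⟩ : ∃ t ∈ S, s t t ≠ 0 := by
    by_contra hc
    push Not at hc
    have hz := fun u hu v hv => apply_eq_zero_of_singular s T.sym T.two hc (u := u) (v := v) hu hv
    have hS0 : ∀ v ∈ S, v = 0 := fun v hv => T.snd v fun u => by
      obtain ⟨k, hk, v', hv', rfl⟩ := Submodule.mem_sup.mp (hcompl.sup_eq_top ▸ Submodule.mem_top : u ∈ K ⊔ S)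
      rw [map_add, hz v hv v' hv', T.sym v k, hv k hk, add_zero]
    have hall : ∀ u, C u p = 0 := fun u => by
      obtain ⟨k, hk, v', hv', rfl⟩ := Submodule.mem_sup.mp (hcompl.sup_eq_top ▸ Submodule.mem_top : u ∈ K ⊔ S)
      rw [hS0 v' hv', add_zero]
      exact (mem_plKer.mp hk).1
    rw [T.eq_zero_of_C hall, map_zero, LinearMap.zero_apply] at hpq
    exact zero_ne_one hpq
  have htK : t ∉ K := fun h => ht0 (by rw [hSK t ht h]; simp)
  set n := s t t with hndef
  have hkt : ∀ k ∈ K, s k t = 0 := ht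
  have hCKproj : ∀ k ∈ K, ∀ y, C k (proj p q y) = 0 := fun k hk y => by
    rw [proj_apply, map_sub, map_smul, map_smul, (mem_plKer.mp hk).1, (mem_plKer.mp hk).2, smul_zero, smul_zero,
      sub_zero]
  have hKI : ∀ k ∈ K, ∀ a, C k ((I : Mat) *ᵥ pu a t) = 0 := fun k hk a => by
    rw [hIv, map_sub, map_smul, hCKproj k hk, T.C_pu, T.sym t k, hkt k hk, zero_smul, smul_zero, sub_zero]
  -- the scalar
  obtain ⟨c, hc⟩ := T.scalar_of_alt hA (f := (C t).comp ((Matrix.mulVecLin (I : Mat)).comp (pu.flip t))) fun x => by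
    simp only [LinearMap.comp_apply, LinearMap.flip_apply, Matrix.mulVecLin_apply]
    rw [T.adj, hIv, map_sub, map_smul, LinearMap.sub_apply, LinearMap.smul_apply, beta_self, proj_apply,
      map_sub, map_smul, map_smul, LinearMap.sub_apply, LinearMap.smul_apply, LinearMap.smul_apply,
      beta_swap (pu x t) p, beta_swap (pu x t) q, smul_eq_mul, smul_eq_mul, smul_eq_mul]
    ring
  simp only [LinearMap.comp_apply, LinearMap.flip_apply, Matrix.mulVecLin_apply] at hc
  set γ := c / n with hγ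
  have hγn : c = γ * n := by rw [hγ, div_mul_cancel₀ _ ht0]
  have hCproj : ∀ a, (2 : F) • C t (proj p q (pu a t)) = ((1 - γ) * n) • a := fun a => by
    have := hc a
    rw [hIv, map_sub, map_smul, T.C_pu, ← hndef, hγn] at this
    rw [sub_eq_iff_eq_add'] at this
    rw [sub_mul, sub_smul, one_mul, this]
    module
  have hγ1 : γ ≠ 1 := by
    intro h1
    refine T.not_pure_image hn htK (σ := t) fun a => ?_
    have h0 : C t (proj p q (pu a t)) = 0 := by
      have := hCproj a
      rw [h1, sub_self, zero_mul, zero_smul] at this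
      exact (smul_eq_zero.mp this).resolve_left T.two
    rw [proj_apply, sub_eq_add_neg, ← neg_smul] at h0
    by_cases hcd : β (pu a t) q = 0 ∧ -β (pu a t) p = 0
    · rw [proj_apply, hcd.1, neg_eq_zero.mp hcd.2, zero_smul, zero_smul, sub_zero, smul_zero, sub_zero]
    · exact absurd (mem_plKer.mpr (hn.1 _ _ t hcd h0)) htK
  have hN : ∀ σ₁ ∈ S, ∀ σ₂ ∈ S, s σ₁ t = 0 → s σ₂ t = 0 → σ₁ ≠ 0 → ∃ e : F, σ₂ = e • σ₁ := by
    intro σ₁ h1 σ₂ h2 o1 o2 hne
    have hli : LinearIndependent F ![(⟨t, ht⟩ : S), ⟨σ₁, h1⟩] := by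
      rw [LinearIndependent.pair_iff]
      intro e f h
      have h' : e • t + f • σ₁ = 0 := congrArg Subtype.val h
      have h1' := congrArg (s t) h'
      simp [T.sym t σ₁, o1, ht0, ← hndef] at h1'
      subst h1'
      simp [hne] at h'
      exact ⟨rfl, h'⟩
    obtain ⟨e, he⟩ := (Submodule.mem_span_range_iff_exists_fun F).mp
      (show (⟨σ₂, h2⟩ : S) ∈ Submodule.span F (Set.range ![(⟨t, ht⟩ : S), ⟨σ₁, h1⟩]) from
        (hli.span_eq_top_of_card_eq_finrank (le_antisymm (by simpa using hli.fintype_card_le_finrank)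
          (by simpa using hS2))) ▸ trivial)
    have he' : e 0 • t + e 1 • σ₁ = σ₂ := by simpa [Fin.sum_univ_two] using congrArg Subtype.val he
    have h0 := congrArg (fun x => s x t) he'
    simp [o1, o2, ← hndef, ht0] at h0
    exact ⟨e 1, by rw [← he', h0, zero_smul, zero_add]⟩
  have hγm : γ ≠ -1 := by
    intro h1
    refine hn.2 ⟨t, fun h => ht0 (by simp [hndef, h]), fun a => ?_⟩
    set y := pu a t - proj p q (pu a t) with hy
    suffices hy0 : y = 0 by
      rw [sub_eq_zero.mp hy0]; exact proj_mem p q _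
    have hyt : C t y = 0 := by
      have := hCproj a
      rw [h1] at this
      have h2 : C t (proj p q (pu a t)) = n • a := smul_right_injective A T.two (by
        simp only [this, smul_smul]; congr 1; ring)
      rw [hy, map_sub, T.C_pu, ← hndef, h2, sub_self]
    have hyK : ∀ k ∈ K, C k y = 0 := fun k hk => by
      rw [hy, map_sub, hCKproj k hk, T.C_pu, T.sym t k, hkt k hk, zero_smul, sub_zero]
    obtain ⟨σ₁, h1', σ₂, h2', e⟩ := T.mem_tensor hA K hyK ha01
    have hz : s σ₁ t • a₀ + s σ₂ t • a₁ = 0 := by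
      rw [e, map_add, T.C_pu, T.C_pu] at hyt; exact hyt
    have o1 : s σ₁ t = 0 := by
      have := congrArg (fun x => ω x a₁) hz
      simpa [T.alt, ha01] using this
    have o2 : s σ₂ t = 0 := by
      have := congrArg (ω a₀) hz
      simpa [T.alt, ha01] using this
    obtain ⟨b, t₁, ht₁, ot₁, ey⟩ : ∃ b t₁, t₁ ∈ S ∧ s t₁ t = 0 ∧ y = pu b t₁ := by
      by_cases hne : σ₁ = 0
      · exact ⟨a₁, σ₂, h2', o2, by rw [e, hne, map_zero, zero_add]⟩
      · obtain ⟨f, rfl⟩ := hN σ₁ h1' σ₂ h2' o1 o2 hne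
        exact ⟨a₀ + f • a₁, σ₁, h1', o1, by rw [e, map_add, map_smul, map_smul, LinearMap.add_apply, LinearMap.smul_apply]⟩
    have hyp : β y p = 0 ∧ β y q = 0 := by
      constructor <;>
        simp [hy, proj_apply, beta_self, beta_swap p q, hpq]
    rw [ey] at hyp ⊢
    rw [T.beta_pu, T.beta_pu] at hyp
    by_contra hne
    have hb : b ≠ 0 := fun h => hne (by rw [h, map_zero, LinearMap.zero_apply])
    have ht₁0 : t₁ ≠ 0 := fun h => hne (by rw [h, map_zero])
    obtain ⟨c₁, hc₁⟩ := Submodule.mem_span_singleton.mp (T.dependent hA hb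
      (by rw [T.ωswap b, hyp.1, neg_zero] : ω (C t₁ p) b = 0))
    obtain ⟨c₂, hc₂⟩ := Submodule.mem_span_singleton.mp (T.dependent hA hb
      (by rw [T.ωswap b, hyp.2, neg_zero] : ω (C t₁ q) b = 0))
    have ht₁K : t₁ ∉ K := fun h => ht₁0 (hSK t₁ ht₁ h)
    by_cases hc0 : c₁ = 0
    · refine ht₁K (mem_plKer.mpr (hn.1 1 0 t₁ (by simp) ?_))
      rw [one_smul, zero_smul, add_zero, ← hc₁, hc0, zero_smul]
    · refine ht₁K (mem_plKer.mpr (hn.1 c₂ (-c₁) t₁ (by simp [hc0]) ?_))
      rw [map_add, map_smul, map_smul, ← hc₁, ← hc₂]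
      module
  -- a vector of the kernel with prescribed norm
  let sK : K →ₗ[F] K →ₗ[F] F := s.compl₁₂ K.subtype K.subtype
  obtain ⟨⟨k, hk⟩, hk0, -, hkn⟩ := exists_perp_value sK (fun u v => T.sym u v) T.two
    (fun u hu => Subtype.ext (hrad u u.2 fun v hv => hu ⟨v, hv⟩)) (k := 0) Fin.elim0 (fun i => i.elim0)
    (fun i => i.elim0) (by omega) (-(γ * γ * n))
  replace hkn : s k k = -(γ * γ * n) := hkn
  have hk0' : k ≠ 0 := fun h => hk0 (Subtype.ext h)
  have hkp := mem_plKer.mp hk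
  have hIk : ∀ a, (I : Mat) *ᵥ pu a k = pu a k := fun a => by
    rw [hIv, T.proj_eq_zero hkp.1 hkp.2, smul_zero, sub_zero]
  have htk : s t k = 0 := by rw [T.sym]; exact hkt k hk
  set w := t + k with hw
  have hww : s w w ≠ 0 := by
    rw [hw]
    simp only [map_add, LinearMap.add_apply, hkn, htk, hkt k hk, add_zero, zero_add, ← hndef]
    rw [show n + -(γ * γ * n) = (1 - γ) * (1 + γ) * n by ring]
    exact mul_ne_zero (mul_ne_zero (sub_ne_zero.mpr (Ne.symm hγ1))
      (fun h => hγm (eq_neg_of_add_eq_zero_right h))) ht0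
  have hQ := T.pl_image hA hI hww ha01
  set p' := (I : Mat) *ᵥ pu a₀ w
  set q' := (s w w)⁻¹ • ((I : Mat) *ᵥ pu a₁ w)
  have hIw : ∀ a, (I : Mat) *ᵥ pu a w = pu a k + (I : Mat) *ᵥ pu a t := fun a => by
    rw [hw, map_add, Matrix.mulVec_add, hIk, add_comm]
  set r₀ := k + γ • t with hr₀
  have hr₀C : ∀ a, C r₀ ((I : Mat) *ᵥ pu a w) = 0 := fun a => by
    rw [hIw, hr₀, map_add, map_add, map_smul, LinearMap.add_apply, LinearMap.smul_apply, LinearMap.add_apply,
      LinearMap.smul_apply, T.C_pu, T.C_pu, hKI k hk, hc, hkn, hkt k hk, zero_smul, smul_zero, zero_add, add_zero,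
      smul_smul, hγn, ← add_smul]
    rw [show -(γ * γ * n) + γ * (γ * n) = 0 by ring, zero_smul]
  have hinv : ∀ y, (I : Mat) *ᵥ ((I : Mat) *ᵥ y) = y := fun y => by
    rw [hIv ((I : Mat) *ᵥ y), hIv y, map_sub, map_smul, proj_plane hpq (proj_mem p q y)]
    module
  have hpure : ¬ ∃ v : B, v ≠ 0 ∧ ∀ a, pu a v ∈ Submodule.span F ({p', q'} : Set V) := by
    rintro ⟨v, hv, hvm⟩
    obtain ⟨u₀, hu₀, hku₀⟩ : ∃ u₀ ∈ K, s k u₀ ≠ 0 := by
      by_contra hc'
      push Not at hc'
      exact hk0' (hrad k hk hc')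
    refine T.not_pure_image hn htK (σ := (s k u₀ / s v u₀) • v - k) fun a => ?_
    obtain ⟨e, f, hef⟩ := Submodule.mem_span_pair.mp (hvm a)
    set g := e • a₀ + (f * (s w w)⁻¹) • a₁
    have hg : pu a v = (I : Mat) *ᵥ pu g w := by
      rw [← hef]
      simp only [p', q', g, map_add, map_smul, LinearMap.add_apply, LinearMap.smul_apply, Matrix.mulVec_add,
        Matrix.mulVec_smul, smul_smul]
    have hCu : s v u₀ • a = s k u₀ • g := by
      have := congrArg (C u₀) hg
      rwa [hIw, map_add, T.C_pu, T.C_pu, hKI u₀ hu₀, add_zero] at this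
    rw [← hIv]
    by_cases hvu : s v u₀ = 0
    · rw [hvu, zero_smul, eq_comm] at hCu
      rw [(smul_eq_zero.mp hCu).resolve_left hku₀, map_zero, LinearMap.zero_apply, Matrix.mulVec_zero] at hg
      have hz : ∀ u, s v u • a = 0 := fun u => by rw [← T.C_pu, hg, map_zero]
      rcases eq_or_ne a 0 with rfl | ha
      · simp
      · exact absurd (T.snd v fun u => (smul_eq_zero.mp (hz u)).resolve_right ha) hv
    · have hga : g = (s v u₀ / s k u₀) • a := by
        rw [div_eq_inv_mul, ← smul_smul, hCu, inv_smul_smul₀ hku₀]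
      rw [hga, map_smul, LinearMap.smul_apply, Matrix.mulVec_smul, hIw] at hg
      rw [map_sub, map_smul, hg, smul_smul, show s k u₀ / s v u₀ * (s v u₀ / s k u₀) = 1 by field_simp, one_smul,
        add_sub_cancel_left]
  rcases T.noKer_or hA hB hQ hpure with h | hn'
  · exact h
  refine T.sp_le_of_degenerate hA hB hQ hn' (r₀ := r₀) ?_ (mem_plKer.mpr ⟨hr₀C a₀, ?_⟩) fun u hu => ?_
  · intro h
    have := congrArg (fun x => s x t) h
    simp [hr₀, hkt k hk, ← hndef, ht0] at this
    rw [hr₀, this, zero_smul, add_zero] at h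
    exact hk0' h
  · rw [map_smul, hr₀C a₁, smul_zero]
  · obtain ⟨hu1, hu2⟩ := mem_plKer.mp hu
    rw [map_smul, smul_eq_zero] at hu2
    replace hu2 := hu2.resolve_left (inv_ne_zero hww)
    have hall : ∀ a, C u ((I : Mat) *ᵥ pu a w) = 0 := fun a => by
      rw [T.expand2 hA ha01 a]
      simp only [map_sub, map_smul, LinearMap.sub_apply, LinearMap.smul_apply, Matrix.mulVec_sub, Matrix.mulVec_smul]
      rw [hu1, hu2, smul_zero, smul_zero, sub_zero]
    obtain ⟨k', hk', v, hv, rfl⟩ := Submodule.mem_sup.mp (hcompl.sup_eq_top ▸ Submodule.mem_top : u ∈ K ⊔ S)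
    set e := s v t / n with he
    set n' := v - e • t with hn''
    have hn't : s n' t = 0 := by
      rw [hn'', map_sub, map_smul, LinearMap.sub_apply, LinearMap.smul_apply, smul_eq_mul, he, ← hndef,
        div_mul_cancel₀ _ ht0, sub_self]
    have hn'S : n' ∈ S := S.sub_mem hv (S.smul_mem e ht)
    have hv' : v = e • t + n' := by rw [hn'']; abel
    have hsn'k : s n' k = 0 := by rw [T.sym]; exact hn'S k hk
    have hcoef : ∀ a, C n' ((I : Mat) *ᵥ pu a t) = (-(s k k' + e * (γ * n))) • a := fun a => by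
      have h0 := hall a
      rw [hv', hIw, map_add C, map_add C, map_smul C, LinearMap.add_apply, LinearMap.add_apply, LinearMap.smul_apply,
        map_add, map_add (C t), map_add (C n'), T.C_pu, T.C_pu, T.C_pu, hKI k' hk', hc, hkt k hk, T.sym k n',
        hsn'k, zero_smul, zero_add, zero_add, add_zero, hγn, smul_smul] at h0
      rw [← sub_eq_zero, ← h0]
      module
    by_cases hn0 : n' = 0
    · simp only [hn0, map_zero, LinearMap.zero_apply] at hcoef
      have := (smul_eq_zero.mp (hcoef a₀).symm).resolve_right ha₀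
      rw [hv', hn0, add_zero, hr₀]
      simp only [map_add, map_smul, LinearMap.add_apply, LinearMap.smul_apply, smul_eq_mul, hkt k hk,
        T.sym t k', hkt k' hk', ← hndef]
      linear_combination (-1 : F) * this
    · exfalso
      set d := -(s k k' + e * (γ * n))
      have hn'n : s n' n' ≠ 0 := fun h => hn0 (hSK n' hn'S (by
        -- `n'` is orthogonal to `S`, hence in the kernel
        have hperp : ∀ σ ∈ S, s σ n' = 0 := fun σ hσ => by
          set f := s σ t / n
          have h3 : σ - f • t ∈ S := S.sub_mem hσ (S.smul_mem f ht)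
          have h4 : s (σ - f • t) t = 0 := by
            rw [map_sub, map_smul, LinearMap.sub_apply, LinearMap.smul_apply, smul_eq_mul, ← hndef,
              div_mul_cancel₀ _ ht0, sub_self]
          obtain ⟨g, hg⟩ := hN n' hn'S _ h3 hn't h4 hn0
          have : σ = g • n' + f • t := by rw [← hg, sub_add_cancel]
          rw [this]
          simp [h, T.sym t n', hn't]
        have hmem : n' ∈ LinearMap.BilinForm.orthogonal s S := hperp
        rwa [hSdef, LinearMap.BilinForm.orthogonal_orthogonal T.snd' T.srefl] at hmem))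
      refine T.not_pure_image hn htK (σ := γ • t + (d / s n' n') • n') fun a => ?_
      rw [← hIv]
      refine T.eq_of_C fun x => ?_
      obtain ⟨k'', hk'', σ, hσ, rfl⟩ := Submodule.mem_sup.mp (hcompl.sup_eq_top ▸ Submodule.mem_top : x ∈ K ⊔ S)
      set f := s σ t / n
      have h3 : σ - f • t ∈ S := S.sub_mem hσ (S.smul_mem f ht)
      have h4 : s (σ - f • t) t = 0 := by
        rw [map_sub, map_smul, LinearMap.sub_apply, LinearMap.smul_apply, smul_eq_mul, ← hndef,
          div_mul_cancel₀ _ ht0, sub_self]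
      obtain ⟨g, hg⟩ := hN n' hn'S _ h3 hn't h4 hn0
      have hσ' : σ = g • n' + f • t := by rw [← hg, sub_add_cancel]
      have hn'k'' : s n' k'' = 0 := by rw [T.sym]; exact hn'S k'' hk''
      have htk'' : s t k'' = 0 := by rw [T.sym]; exact hkt k'' hk''
      rw [hσ']
      simp only [map_add, map_smul, LinearMap.add_apply, LinearMap.smul_apply, smul_eq_mul, hKI k'' hk'', hc, hγn,
        hcoef, T.C_pu, hn'k'', htk'', hn't, T.sym t n', ← hndef, mul_zero, zero_add, add_zero, zero_smul, smul_smul,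
        smul_zero, div_mul_cancel₀ _ hn'n]
      match_scalars
      field_simp
      ring

/-- A plane that is not pure gives everything. -/
theorem sp_le_of_plane (T : TS M ω s pu C) (hA : finrank F A = 2) (hB : 5 ≤ finrank F B) {p q : V} (hP : Pl M p q)
    (hpure : ¬ ∃ v : B, v ≠ 0 ∧ ∀ a, pu a v ∈ Submodule.span F ({p, q} : Set V)) : Cfsg.spGL m F ≤ M := by
  rcases T.noKer_or hA hB hP hpure with h | hn
  · exact h
  by_cases hd : ∃ r ∈ plKer C p q, r ≠ 0 ∧ ∀ k ∈ plKer C p q, s r k = 0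
  · obtain ⟨r, hr, hr0, hrad⟩ := hd
    exact T.sp_le_of_degenerate hA hB hP hn hr0 hr hrad
  · push Not at hd
    refine T.sp_le_of_nondegenerate hA hB hP hn fun r hr h => ?_
    by_contra hr0
    obtain ⟨k, hk, hne⟩ := hd r hr hr0
    exact hne (h k hk)

end Cfsg.Agent.H25.GeoLists.TS
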