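import Cfsg.Agent.H25.GeoLists.SpTensor.Root

/-!
Conjugates of the involutions belonging to non-singular vectors of the second factor, for a plane as first factor.
-/

set_option autoImplicit false
set_option linter.unusedSectionVars false

namespace Cfsg.Agent.H25.GeoLists

open scoped Matrix
open Cfsg.Agent.H98 Module

attribute [-simp] Cfsg.Agent.H2.sympBilin_apply

/-- A totally singular subspace has at most half the dimension. -/
theorem two_mul_finrank_le {F B : Type*} [Field F] [AddCommGroup B] [Module F B] [FiniteDimensional F B]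
    (s : B →ₗ[F] B →ₗ[F] F) (hs : ∀ u v, s u v = s v u) (hnd : ∀ u, (∀ v, s u v = 0) → u = 0)
    {K : Submodule F B} (hK : ∀ u ∈ K, ∀ v ∈ K, s u v = 0) : 2 * finrank F K ≤ finrank F B := by
  have hnd' : LinearMap.BilinForm.Nondegenerate s := ⟨hnd, fun y hy => hnd y fun x => by rw [hs]; exact hy x⟩
  have h1 := LinearMap.BilinForm.finrank_orthogonal hnd' K
  have h2 := Submodule.finrank_mono (s := K) (t := LinearMap.BilinForm.orthogonal s K) fun v hv w hw => hK w hw v hv
  have h3 := Submodule.finrank_le K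
  omega

variable {m : ℕ} {F : Type*} [Field F] {A B : Type*} [AddCommGroup A] [Module F A] [AddCommGroup B] [Module F B]
variable {M : Subgroup (GL (Fin m ⊕ Fin m) F)} {ω : A →ₗ[F] A →ₗ[F] F} {s : B →ₗ[F] B →ₗ[F] F}
  {pu : A →ₗ[F] B →ₗ[F] (Fin m ⊕ Fin m → F)} {C : B →ₗ[F] (Fin m ⊕ Fin m → F) →ₗ[F] A}
  [Fintype F] [FiniteDimensional F A] [FiniteDimensional F B]

local notation "V" => (Fin m ⊕ Fin m → F)
local notation "Mat" => Matrix (Fin m ⊕ Fin m) (Fin m ⊕ Fin m) F
local notation "β" => Cfsg.Agent.H2.sympBilin m F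

/-- The projection onto the plane of a hyperbolic pair. -/
def proj (p q : Fin m ⊕ Fin m → F) : (Fin m ⊕ Fin m → F) →ₗ[F] (Fin m ⊕ Fin m → F) :=
  ((β).flip q).smulRight p - ((β).flip p).smulRight q

theorem proj_apply (p q v : Fin m ⊕ Fin m → F) : proj p q v = β v q • p - β v p • q := by
  simp [proj]

/-- The involution of the plane of a hyperbolic pair lies in the group. -/
def Pl (M : Subgroup (GL (Fin m ⊕ Fin m) F)) (p q : Fin m ⊕ Fin m → F) : Prop :=
  β p q = 1 ∧ ∃ I ∈ M, ∀ v, (I : Mat) *ᵥ v = v - (2 : F) • proj p q v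

namespace TS

theorem expand2 (T : TS M ω s pu C) (hA : finrank F A = 2) {a a' : A} (hone : ω a a' = 1) (x : A) :
    x = ω x a' • a - ω x a • a' := by
  have hli : LinearIndependent F ![a, a'] := by
    rw [LinearIndependent.pair_iff]
    intro c d h
    have h1 := congrArg (ω a) h
    have h2 := congrArg (fun z => ω z a') h
    simp [T.alt, hone] at h1 h2
    exact ⟨h2, h1⟩
  have hmem : x ∈ Submodule.span F (Set.range ![a, a']) :=
    (hli.span_eq_top_of_card_eq_finrank (by simp [hA])) ▸ trivial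
  obtain ⟨c, rfl⟩ := (Submodule.mem_span_range_iff_exists_fun F).mp hmem
  have hone' : ω a' a = -1 := by rw [T.ωswap a a', hone]
  simp [Fin.sum_univ_two, T.alt, hone, hone']

theorem exists_one (T : TS M ω s pu C) {α : A} (hα : α ≠ 0) : ∃ α', ω α α' = 1 := by
  obtain ⟨y, hy, -⟩ := T.exists_pairing hα hα
  exact ⟨(ω α y)⁻¹ • y, by rw [map_smul, smul_eq_mul, inv_mul_cancel₀ hy]⟩

/-- Two vectors with vanishing product are dependent. -/
theorem dependent (T : TS M ω s pu C) (hA : finrank F A = 2) {α x : A} (hα : α ≠ 0) (h : ω x α = 0) :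
    x ∈ Submodule.span F {α} := by
  obtain ⟨α', hα'⟩ := T.exists_one hα
  refine Submodule.mem_span_singleton.mpr ⟨ω x α', ?_⟩
  conv_rhs => rw [T.expand2 hA hα' x, h, zero_smul, sub_zero]

theorem eq_of_C (T : TS M ω s pu C) {v w : V} (h : ∀ u, C u v = C u w) : v = w := by
  rw [← sub_eq_zero]
  exact T.eq_zero_of_C fun u => by rw [map_sub, h, sub_self]

/-- Conjugates of the basic involutions. -/
theorem pl_image (T : TS M ω s pu C) (hA : finrank F A = 2) {g : GL (Fin m ⊕ Fin m) F} (hg : g ∈ M) {u : B}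
    (hu : s u u ≠ 0) {a a' : A} (haa : ω a a' = 1) :
    Pl M ((g : Mat) *ᵥ pu a u) ((s u u)⁻¹ • ((g : Mat) *ᵥ pu a' u)) := by
  have hexp := T.expand2 hA haa
  refine ⟨?_, ?_⟩
  · rw [map_smul, mem_spGL.mp (T.sp hg), T.form, haa, smul_eq_mul, one_mul, inv_mul_cancel₀ hu]
  obtain ⟨z, hz, hzv⟩ := T.exists_z hu
  refine ⟨g * z * g⁻¹, M.mul_mem (M.mul_mem hg hz) (M.inv_mem hg), fun v => ?_⟩
  set v' := ((g⁻¹ : GL (Fin m ⊕ Fin m) F) : Mat) *ᵥ v with hv'
  have hgv : (g : Mat) *ᵥ v' = v := gl_mulVec_inv g v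
  have e : ∀ x : A, β v ((g : Mat) *ᵥ pu x u) = ω (C u v') x := fun x => by
    rw [T.adj, ← mem_spGL.mp (T.sp hg) v' (pu x u), hgv]
  rw [Units.val_mul, Units.val_mul, ← Matrix.mulVec_mulVec, ← Matrix.mulVec_mulVec, ← hv', hzv, proj_apply,
    Matrix.mulVec_sub, hgv, map_smul, smul_eq_mul, e, e]
  conv_lhs => rw [hexp (C u v')]
  simp only [map_sub, map_smul, LinearMap.sub_apply, LinearMap.smul_apply, Matrix.mulVec_sub, Matrix.mulVec_smul]
  match_scalars <;> ring

/-- A kernel vector of one member of a plane gives a root element. -/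
theorem sp_le_of_pair (T : TS M ω s pu C) (hB : 5 ≤ finrank F B) {p q : V} (hP : Pl M p q) {u : B}
    (hu : s u u ≠ 0) (hp : C u p = 0) (hq : C u q ≠ 0) : Cfsg.spGL m F ≤ M := by
  obtain ⟨hpq, I, hI, hIv⟩ := hP
  obtain ⟨z, hz, hzv⟩ := T.exists_z hu
  have hzp : (z : Mat) *ᵥ p = p := by rw [hzv, hp]; simp
  set r := pu (C u q) u with hr
  have h1 : β p r = 0 := by rw [← T.adj, hp, map_zero, LinearMap.zero_apply]
  have h2 : β q r = 0 := by rw [← T.adj, T.alt]
  have hq' : (z : Mat) *ᵥ q = q - (2 / s u u) • r := hzv q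
  set d := 2 / s u u with hd
  have hd0 : d ≠ 0 := div_ne_zero T.two hu
  have hconj : ∀ v, ((z * I * z⁻¹ : GL (Fin m ⊕ Fin m) F) : Mat) *ᵥ v = v - (2 : F) • proj p (q - d • r) v := by
    intro v
    set v' := ((z⁻¹ : GL (Fin m ⊕ Fin m) F) : Mat) *ᵥ v with hv'
    have hzv' : (z : Mat) *ᵥ v' = v := gl_mulVec_inv z v
    have e1 : β v (q - d • r) = β v' q := by rw [← hzv', ← hq', mem_spGL.mp (T.sp hz)]
    have e2 : β v p = β v' p := by
      conv_lhs => rw [← hzv', ← hzp]
      rw [mem_spGL.mp (T.sp hz)]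
    rw [Units.val_mul, Units.val_mul, ← Matrix.mulVec_mulVec, ← Matrix.mulVec_mulVec, ← hv', hIv, proj_apply,
      proj_apply, Matrix.mulVec_sub, hzv', e1, e2, Matrix.mulVec_smul, Matrix.mulVec_sub, Matrix.mulVec_smul,
      Matrix.mulVec_smul, hzp, hq']
  have hX : I * (z * I * z⁻¹) = spX p r (-(2 * d)) := by
    refine gl_ext fun v => ?_
    rw [Units.val_mul, ← Matrix.mulVec_mulVec, hconj, hIv, spX_mulVec h1, proj_apply, proj_apply]
    simp only [map_add, map_sub, map_smul, LinearMap.sub_apply, LinearMap.smul_apply, smul_eq_mul, beta_self,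
      beta_swap p q, hpq, h1, h2, beta_swap p r, beta_swap q r]
    match_scalars <;> ring
  refine T.sp_le_of_root hB (x := p) ?_ hq hu hp (c := -(2 * d))
    (neg_ne_zero.mpr (mul_ne_zero T.two hd0)) (hX ▸ M.mul_mem hI (M.mul_mem (M.mul_mem hz hI) (M.inv_mem hz)))
  intro h0
  rw [h0, map_zero, LinearMap.zero_apply] at hpq
  exact zero_ne_one hpq

/-- A plane all of whose non-zero members have one kernel, and which is not pure. -/
def NoKer (C : B →ₗ[F] (Fin m ⊕ Fin m → F) →ₗ[F] A) (pu : A →ₗ[F] B →ₗ[F] (Fin m ⊕ Fin m → F))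
    (p q : Fin m ⊕ Fin m → F) : Prop :=
  (∀ (c d : F) (k : B), ¬ (c = 0 ∧ d = 0) → C k (c • p + d • q) = 0 → C k p = 0 ∧ C k q = 0) ∧
    ¬ ∃ v : B, v ≠ 0 ∧ ∀ a, pu a v ∈ Submodule.span F ({p, q} : Set V)

/-- The vectors killing a plane. -/
def plKer (C : B →ₗ[F] (Fin m ⊕ Fin m → F) →ₗ[F] A) (p q : Fin m ⊕ Fin m → F) : Submodule F B :=
  LinearMap.ker (C.flip p) ⊓ LinearMap.ker (C.flip q)

theorem mem_plKer {p q : V} {k : B} : k ∈ plKer C p q ↔ C k p = 0 ∧ C k q = 0 := by
  simp [plKer]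

/-- Otherwise all members of the plane have one kernel. -/
theorem noKer_or (T : TS M ω s pu C) (hA : finrank F A = 2) (hB : 5 ≤ finrank F B) {p q : V} (hP : Pl M p q)
    (hpure : ¬ ∃ v : B, v ≠ 0 ∧ ∀ a, pu a v ∈ Submodule.span F ({p, q} : Set V)) :
    Cfsg.spGL m F ≤ M ∨ NoKer C pu p q := by
  classical
  by_cases hn : ∀ (c d : F) (k : B), ¬ (c = 0 ∧ d = 0) → C k (c • p + d • q) = 0 → C k p = 0 ∧ C k q = 0
  · exact Or.inr ⟨hn, hpure⟩
  push Not at hn
  obtain ⟨c, d, k, hcd, hk, hk'⟩ := hn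
  -- a basis starting with the vector
  obtain ⟨c', d', hdet⟩ : ∃ c' d' : F, c * d' - d * c' = 1 := by
    by_cases hc : c = 0
    · have hd : d ≠ 0 := hcd hc
      exact ⟨-d⁻¹, 0, by field_simp; ring⟩
    · exact ⟨0, c⁻¹, by field_simp; ring⟩
  set p' := c • p + d • q with hp'
  set q' := c' • p + d' • q with hq'
  obtain ⟨hpq, I, hI, hIv⟩ := hP
  have hP' : Pl M p' q' := by
    refine ⟨?_, I, hI, fun v => ?_⟩
    · simp only [hp', hq', map_add, map_smul, LinearMap.add_apply, LinearMap.smul_apply, smul_eq_mul, beta_self,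
        beta_swap p q, hpq]
      linear_combination hdet
    · rw [hIv, proj_apply, proj_apply, hp', hq']
      simp only [map_add, map_smul, smul_eq_mul]
      match_scalars
      · ring
      · linear_combination (2 * β v q) * hdet
      · linear_combination (-(2 * β v p)) * hdet
  have hkq : C k q' ≠ 0 := by
    intro h
    refine absurd (hk' ?_) (not_not_intro ?_)
    · have e : p = d' • p' - d • q' := by
        rw [hp', hq']; match_scalars
        · linear_combination -hdet
        · ring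
      rw [e, map_sub, map_smul, map_smul, hk, h, smul_zero, smul_zero, sub_zero]
    · have e : q = c • q' - c' • p' := by
        rw [hp', hq']; match_scalars
        · linear_combination -hdet
        · ring
      rw [e, map_sub, map_smul, map_smul, hk, h, smul_zero, smul_zero, sub_zero]
  have hns : ∃ u ∈ LinearMap.ker (C.flip p'), s u u ≠ 0 := by
    by_contra hc
    push Not at hc
    have h1 := two_mul_finrank_le s T.sym T.snd (K := LinearMap.ker (C.flip p'))
      fun u hu v hv => apply_eq_zero_of_singular s T.sym T.two hc hu hv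
    have h2 := (C.flip p').finrank_range_add_finrank_ker
    have h3 := Submodule.finrank_le (LinearMap.range (C.flip p'))
    omega
  obtain ⟨u, hu, huq, hu0⟩ := exists_nonsingular_notMem s T.sym T.two (LinearMap.ker (C.flip p'))
    (LinearMap.ker (C.flip q')) hns fun hle => hkq (hle (show k ∈ LinearMap.ker (C.flip p') from hk))
  exact Or.inl (T.sp_le_of_pair hB hP' hu0 hu huq)

end TS

end Cfsg.Agent.H25.GeoLists
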