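import Cfsg.Agent.H25.GeoLists.SpTensor.Exceptional

/-!
An element mapping every basic plane to a pure plane is a tensor product.
-/

set_option autoImplicit false
set_option linter.unusedSectionVars false

namespace Cfsg.Agent.H25.GeoLists.TS

open scoped Matrix
open Cfsg.Agent.H98 Module

attribute [-simp] Cfsg.Agent.H2.sympBilin_apply

variable {m : ℕ} {F : Type*} [Field F] {A B : Type*} [AddCommGroup A] [Module F A] [AddCommGroup B] [Module F B]
variable {M : Subgroup (GL (Fin m ⊕ Fin m) F)} {ω : A →ₗ[F] A →ₗ[F] F} {s : B →ₗ[F] B →ₗ[F] F}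
  {pu : A →ₗ[F] B →ₗ[F] (Fin m ⊕ Fin m → F)} {C : B →ₗ[F] (Fin m ⊕ Fin m → F) →ₗ[F] A}
  [Fintype F] [FiniteDimensional F A] [FiniteDimensional F B]

local notation "V" => (Fin m ⊕ Fin m → F)
local notation "Mat" => Matrix (Fin m ⊕ Fin m) (Fin m ⊕ Fin m) F
local notation "β" => Cfsg.Agent.H2.sympBilin m F

theorem pu_inj (T : TS M ω s pu C) {x : A} (hx : x ≠ 0) {u : B} (h : pu x u = 0) : u = 0 :=
  T.snd u fun w => by
    have := congrArg (C w) h
    rw [T.C_pu, map_zero] at this
    exact (smul_eq_zero.mp this).resolve_right hx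

/-- Either some plane gives everything or the element is a tensor product. -/
theorem pure_or_sp_le (T : TS M ω s pu C) (hA : finrank F A = 2) (hB : 5 ≤ finrank F B) {g : GL (Fin m ⊕ Fin m) F}
    (hg : g ∈ M) : Cfsg.spGL m F ≤ M ∨ ∃ (G : A →ₗ[F] A) (k : B →ₗ[F] B),
      ∀ x u, (g : Mat) *ᵥ pu x u = pu (G x) (k u) := by
  classical
  haveI : Nontrivial A := Module.nontrivial_of_finrank_pos (R := F) (by omega)
  obtain ⟨a₀, ha₀⟩ := exists_ne (0 : A)
  obtain ⟨a₁, ha01⟩ := T.exists_one ha₀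
  by_cases hall : ∀ u : B, s u u ≠ 0 → ∃ v : B, v ≠ 0 ∧ ∀ a, pu a v ∈ Submodule.span F
      ({(g : Mat) *ᵥ pu a₀ u, (s u u)⁻¹ • ((g : Mat) *ᵥ pu a₁ u)} : Set V)
  swap
  · push Not at hall
    obtain ⟨u, hu, hv⟩ := hall
    exact Or.inl (T.sp_le_of_plane hA hB (T.pl_image hA hg hu ha01) fun ⟨v, hv0, hvm⟩ => by
      obtain ⟨a, ha⟩ := hv v hv0
      exact ha (hvm a))
  refine Or.inr ?_
  -- each basic plane goes to a pure plane
  have hfact : ∀ u : B, s u u ≠ 0 → ∃ (v : B) (G : A →ₗ[F] A), v ≠ 0 ∧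
      ∀ a, (g : Mat) *ᵥ pu a u = pu (G a) v := by
    intro u hu
    obtain ⟨v, hv, hvm⟩ := hall u hu
    obtain ⟨w, hw⟩ : ∃ w, s v w ≠ 0 := by by_contra hc; push Not at hc; exact hv (T.snd v hc)
    have hL : ∀ a, ∃ b, pu a v = (g : Mat) *ᵥ pu b u := fun a => by
      obtain ⟨e, f, hef⟩ := Submodule.mem_span_pair.mp (hvm a)
      refine ⟨e • a₀ + (f * (s u u)⁻¹) • a₁, ?_⟩
      rw [← hef]
      simp only [map_add, map_smul, LinearMap.add_apply, LinearMap.smul_apply, Matrix.mulVec_add, Matrix.mulVec_smul,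
        smul_smul]
    choose L hL using hL
    have hinjL : Function.Injective L := fun x y he => by
      have h := congrArg (C w) ((hL x).trans ((congrArg (fun b => (g : Mat) *ᵥ pu b u) he).trans (hL y).symm))
      rw [T.C_pu, T.C_pu] at h
      exact smul_right_injective A hw h
    haveI : Finite A := Module.finite_of_finite F
    have hsur : Function.Surjective L := Finite.surjective_of_injective hinjL
    refine ⟨v, (s v w)⁻¹ • (C w).comp ((Matrix.mulVecLin (g : Mat)).comp (pu.flip u)), hv, fun a => ?_⟩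
    obtain ⟨x, rfl⟩ := hsur a
    simp only [LinearMap.smul_apply, LinearMap.comp_apply, LinearMap.flip_apply, Matrix.mulVecLin_apply]
    rw [← hL, T.C_pu, inv_smul_smul₀ hw]
  choose! v G hv hG using hfact
  have hn : ∀ u, s u u ≠ 0 → s (v u) (v u) ≠ 0 ∧ ∀ x y, ω (G u x) (G u y) * s (v u) (v u) = ω x y * s u u := by
    intro u hu
    have h := fun x y => mem_spGL.mp (T.sp hg) (pu x u) (pu y u)
    simp only [hG u hu, T.form] at h
    refine ⟨fun h0 => ?_, h⟩
    have := h a₀ a₁
    rw [h0, mul_zero, ha01, one_mul] at this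
    exact hu this.symm
  have hG0 : ∀ u, s u u ≠ 0 → ∀ x y, ω x y ≠ 0 → ω (G u x) (G u y) ≠ 0 := fun u hu x y hxy h => by
    have := (hn u hu).2 x y
    rw [h, zero_mul] at this
    exact mul_ne_zero hxy hu this.symm
  have horth : ∀ u u', s u u ≠ 0 → s u' u' ≠ 0 → s u u' = 0 → s (v u) (v u') = 0 := by
    intro u u' hu hu' h
    -- some pair of images pairs non-trivially
    obtain ⟨x, y, hxy⟩ : ∃ x y, ω (G u x) (G u' y) ≠ 0 := by
      obtain ⟨q, hq⟩ : ∃ q, ω (G u a₀) q ≠ 0 := ⟨_, hG0 u hu a₀ a₁ (by rw [ha01]; exact one_ne_zero)⟩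
      have hinj : Function.Injective (G u') := by
        refine (injective_iff_map_eq_zero _).mpr fun x hx => ?_
        refine T.ωnd x fun y => ?_
        by_contra hne
        exact hG0 u' hu' x y hne (by rw [hx, map_zero, LinearMap.zero_apply])
      obtain ⟨y, rfl⟩ := LinearMap.surjective_of_injective hinj q
      exact ⟨a₀, y, hq⟩
    have e := mem_spGL.mp (T.sp hg) (pu x u) (pu y u')
    rw [hG u hu, hG u' hu', T.form, T.form, h, mul_zero] at e
    exact (mul_eq_zero.mp e).resolve_left hxy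
  have hprop : ∀ u u', s u u ≠ 0 → s u' u' ≠ 0 → s u u' = 0 → ∃ c : F, ∀ x, G u' x = c • G u x := by
    intro u u' hu hu' huu
    have hu'u : s u' u = 0 := by rw [T.sym]; exact huu
    obtain ⟨d, hd0, hd⟩ : ∃ d : F, d ≠ 0 ∧ s u u + s u' u' + d ≠ 0 := by
      by_cases h1 : s u u + s u' u' + 1 = 0
      · exact ⟨-1, neg_ne_zero.mpr one_ne_zero, fun h => T.two (by linear_combination h1 - h)⟩
      · exact ⟨1, one_ne_zero, h1⟩
    obtain ⟨w, -, hwu, hwu', hww⟩ := T.exists_third hB hu hu' huu d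
    have huw : s u w = 0 := by rw [T.sym]; exact hwu
    have hu'w : s u' w = 0 := by rw [T.sym]; exact hwu'
    set U := u + u' + w with hUdef
    have hw : s w w ≠ 0 := by rw [hww]; exact hd0
    have hU : s U U ≠ 0 := by
      rw [hUdef]
      simp only [map_add, LinearMap.add_apply, huu, hu'u, hwu, huw, hwu', hu'w, hww, add_zero, zero_add]
      exact hd
    have key : ∀ z, z = u ∨ z = u' → ∀ x, s (v U) (v z) • G U x = s (v z) (v z) • G z x := by
      intro z hz x
      have h := congrArg (C (v z)) (hG U hU x)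
      rw [hUdef, map_add, map_add, Matrix.mulVec_add, Matrix.mulVec_add, map_add, map_add, hG u hu, hG u' hu',
        hG w hw, T.C_pu, T.C_pu, T.C_pu, T.C_pu, ← hUdef] at h
      rcases hz with h' | h' <;> rw [h'] at h ⊢
      · rw [← h, horth u' u hu' hu hu'u, horth w u hw hu hwu]; simp
      · rw [← h, horth u u' hu hu' huu, horth w u' hw hu' hwu']; simp
    set e := s (v U) (v u)
    have he : e ≠ 0 := by
      intro h0
      have := key u (Or.inl rfl) a₀
      rw [show s (v U) (v u) = 0 from h0, zero_smul] at this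
      have h1 := (smul_eq_zero.mp this.symm).resolve_left (hn u hu).1
      exact hG0 u hu a₀ a₁ (by rw [ha01]; exact one_ne_zero) (by rw [h1, map_zero, LinearMap.zero_apply])
    refine ⟨s (v U) (v u') * e⁻¹ * (s (v u') (v u'))⁻¹ * s (v u) (v u), fun x => ?_⟩
    have hGU : G U x = (e⁻¹ * s (v u) (v u)) • G u x := by
      rw [← smul_smul, ← key u (Or.inl rfl) x, inv_smul_smul₀ he]
    have := key u' (Or.inr rfl) x
    rw [hGU, smul_smul] at this
    calc G u' x = (s (v u') (v u'))⁻¹ • (s (v u') (v u') • G u' x) := (inv_smul_smul₀ (hn u' hu').1 _).symm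
      _ = _ := by rw [← this, smul_smul]; congr 1; ring
  obtain ⟨e₁, -, he₁⟩ := exists_perp s T.sym T.two T.snd (Fin.elim0 : Fin 0 → B) (fun i => i.elim0) (fun i => i.elim0)
    (by omega)
  have hprop' : ∀ u, s u u ≠ 0 → ∃ c : F, ∀ x, G u x = c • G e₁ x := by
    intro u hu
    obtain ⟨p, hp, hp0⟩ : ∃ p ∈ LinearMap.ker (s e₁) ⊓ LinearMap.ker (s u), s p p ≠ 0 := by
      by_contra hc
      push Not at hc
      have h1 := two_mul_finrank_le s T.sym T.snd (K := LinearMap.ker (s e₁) ⊓ LinearMap.ker (s u))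
        fun a ha b hb => apply_eq_zero_of_singular s T.sym T.two hc ha hb
      have h2 := Submodule.finrank_sup_add_finrank_inf_eq (LinearMap.ker (s e₁)) (LinearMap.ker (s u))
      have h3 := Submodule.finrank_le (LinearMap.ker (s e₁) ⊔ LinearMap.ker (s u))
      have h4 := (s e₁).finrank_range_add_finrank_ker
      have h5 := (s u).finrank_range_add_finrank_ker
      have h6 := Submodule.finrank_le (LinearMap.range (s e₁))
      have h7 := Submodule.finrank_le (LinearMap.range (s u))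
      rw [Module.finrank_self] at h6 h7
      omega
    obtain ⟨c₁, hc₁⟩ := hprop e₁ p he₁ hp0 hp.1
    obtain ⟨c₂, hc₂⟩ := hprop p u hp0 hu (by rw [T.sym]; exact hp.2)
    exact ⟨c₂ * c₁, fun x => by rw [hc₂, hc₁, smul_smul]⟩
  have ha' : G e₁ a₀ ≠ 0 := fun h =>
    hG0 e₁ he₁ a₀ a₁ (by rw [ha01]; exact one_ne_zero) (by rw [h, map_zero, LinearMap.zero_apply])
  obtain ⟨l, hl⟩ := LinearMap.exists_leftInverse_of_injective (pu (G e₁ a₀))
    (LinearMap.ker_eq_bot'.mpr fun u hu => T.pu_inj ha' hu)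
  refine ⟨G e₁, l.comp ((Matrix.mulVecLin (g : Mat)).comp (pu a₀)), fun x u => ?_⟩
  set k := l.comp ((Matrix.mulVecLin (g : Mat)).comp (pu a₀))
  -- the identity holds on non-singular vectors, which span
  let W : Submodule F B := LinearMap.ker ((Matrix.mulVecLin (g : Mat)).comp (pu x) - (pu (G e₁ x)).comp k)
  suffices hW : u ∈ W by simpa [W, sub_eq_zero] using hW
  have hns : ∀ u', s u' u' ≠ 0 → u' ∈ W := by
    intro u' hu'
    obtain ⟨c, hc⟩ := hprop' u' hu'
    have hk : k u' = c • v u' := by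
      have e : (g : Mat) *ᵥ pu a₀ u' = pu (G e₁ a₀) (c • v u') := by
        rw [hG u' hu', hc, map_smul, LinearMap.smul_apply, map_smul]
      show l ((g : Mat) *ᵥ pu a₀ u') = _
      rw [e]
      exact congrArg (fun φ => φ (c • v u')) hl
    simp [W, hk, hG u' hu', hc]
  by_contra hu
  obtain ⟨u', -, hu'W, hu'0⟩ := exists_nonsingular_notMem s T.sym T.two ⊤ W ⟨e₁, trivial, he₁⟩
    (fun hle => hu (hle trivial))
  exact hu'W (hns u' hu'0)

end Cfsg.Agent.H25.GeoLists.TS
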