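import Cfsg.Agent.H25.GeoLists.SpTensor.Closure

/-!
A short root element with one pure non-singular parameter generates the symplectic group together with the
stabiliser of a tensor decomposition.
-/

set_option autoImplicit false
set_option linter.unusedSectionVars false

namespace Cfsg.Agent.H25.GeoLists.TS

open scoped Matrix
open Cfsg.Agent.H98 Module

attribute [-simp] Cfsg.Agent.H2.sympBilin_apply

variable {m : ℕ} {F : Type*} [Field F] {A B : Type*} [AddCommGroup A] [Module F A] [AddCommGroup B] [Module F B]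
variable {M : Subgroup (GL (Fin m ⊕ Fin m) F)} {ω : A →ₗ[F] A →ₗ[F] F} {s : B →ₗ[F] B →ₗ[F] F}
  {pu : A →ₗ[F] B →ₗ[F] (Fin m ⊕ Fin m → F)} {C : B →ₗ[F] (Fin m ⊕ Fin m → F) →ₗ[F] A}
  [Fintype F] [FiniteDimensional F A] [FiniteDimensional F B]

local notation "V" => (Fin m ⊕ Fin m → F)
local notation "Mat" => Matrix (Fin m ⊕ Fin m) (Fin m ⊕ Fin m) F
local notation "β" => Cfsg.Agent.H2.sympBilin m F

theorem spX_self (x : V) (c : F) : spX x x c = spTrans x (2 * c) :=
  gl_ext fun y => by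
    rw [spX_mulVec (beta_self x), spTrans_mulVec]
    module

theorem spX_conj_mem (T : TS M ω s pu C) {h : GL (Fin m ⊕ Fin m) F} (hh : h ∈ M) {x z : V} {c : F}
    (hX : spX x z c ∈ M) : spX ((h : Mat) *ᵥ x) ((h : Mat) *ᵥ z) c ∈ M := by
  rw [← conj_spX (T.sp hh)]
  exact M.mul_mem (M.mul_mem hh hX) (M.inv_mem hh)

/-- From a short root element to a pair of pure parameters. -/
theorem exists_pure_pair (T : TS M ω s pu C) {x : V} (hx : x ≠ 0) {a : A} (ha : a ≠ 0) {u : B} (hu : s u u ≠ 0)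
    (hC : C u x = 0) {c : F} (hc : c ≠ 0) (hX : spX x (pu a u) c ∈ M) :
    ∃ (v : B) (α : A) (d : F), α ≠ 0 ∧ d ≠ 0 ∧ s v v ≠ 0 ∧ s v u = 0 ∧ spX (pu α v) (pu a u) d ∈ M := by
  classical
  by_cases hall : ∀ v ∈ LinearMap.ker (s u), C v x = 0
  · refine absurd (T.eq_zero_of_C fun w => ?_) hx
    have hk : w - (s u w / s u u) • u ∈ LinearMap.ker (s u) := by
      simp [div_mul_cancel₀ _ hu]
    have := hall _ hk
    rw [map_sub, map_smul, LinearMap.sub_apply, LinearMap.smul_apply, hC, smul_zero, sub_zero] at this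
    exact this
  push Not at hall
  obtain ⟨v₁, hv₁, hv₁x⟩ := hall
  have hns : ∃ v ∈ LinearMap.ker (s u), s v v ≠ 0 := by
    by_contra hc'
    push Not at hc'
    refine hv₁x ?_
    have h0 : v₁ = 0 := T.snd _ fun w => by
      have hk : w - (s u w / s u u) • u ∈ LinearMap.ker (s u) := by
        simp [div_mul_cancel₀ _ hu]
      have h := apply_eq_zero_of_singular s T.sym T.two hc' hv₁ hk
      have hu1 : s v₁ u = 0 := by rw [T.sym]; exact hv₁
      simpa [hu1] using h
    rw [h0, map_zero, LinearMap.zero_apply]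
  obtain ⟨v, hv, hvK, hv0⟩ := exists_nonsingular_notMem s T.sym T.two (LinearMap.ker (s u))
    (LinearMap.ker (C.flip x)) hns (fun hle => hv₁x (hle hv₁))
  have hvu : s v u = 0 := by rw [T.sym]; exact hv
  have hvx : C v x ≠ 0 := hvK
  obtain ⟨z, hz, hzv⟩ := T.exists_z hv0
  have hzr : (z : Mat) *ᵥ pu a u = pu a u := by rw [hzv, T.C_pu, T.sym u v, hvu]; simp
  have h1 := T.spX_conj_mem hz hX
  rw [hzr] at h1
  have hb : β x (pu a u) = 0 := by rw [← T.adj, hC, map_zero, LinearMap.zero_apply]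
  have hbz : β ((z : Mat) *ᵥ x) (pu a u) = 0 := by
    conv_lhs => rw [← hzr]
    rw [mem_spGL.mp (T.sp hz), hb]
  have hb1 : β (pu a u) x = 0 := by rw [beta_swap x, hb, neg_zero]
  have hb2 : β (pu a u) ((z : Mat) *ᵥ x) = 0 := by rw [beta_swap _ (pu a u), hbz, neg_zero]
  have h2 : spX (pu a u) x c * spX (pu a u) ((-1 : F) • ((z : Mat) *ᵥ x)) c ∈ M := by
    rw [← spX_comm_sym hb, spX_smul_right hb2, ← spX_comm_sym hbz, neg_one_mul, ← spX_inv hbz]
    exact M.mul_mem hX (M.inv_mem h1)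
  set d := 2 / s v v with hd
  have hd0 : d ≠ 0 := div_ne_zero T.two hv0
  have e : x + (-1 : F) • ((z : Mat) *ᵥ x) = d • pu (C v x) v := by rw [hzv]; module
  rw [spX_add_right hb1 (by rw [map_smul, hb2, smul_zero])] at h2
  have hb3 : β ((-1 : F) • ((z : Mat) *ᵥ x)) x = 0 := by
    rw [hzv]
    simp only [map_smul, map_sub, LinearMap.smul_apply, LinearMap.sub_apply, beta_self, T.beta_pu, T.alt,
      smul_zero, sub_zero]
  rw [hb3, mul_zero, spTrans_zero, mul_one, e] at h2
  have hbv : β (pu a u) (pu (C v x) v) = 0 := by rw [T.form, T.sym u v, hvu, mul_zero]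
  rw [spX_smul_right hbv, spX_comm_sym hbv] at h2
  exact ⟨v, C v x, d * c, hvx, mul_ne_zero hd0 hc, hv0, hvu, h2⟩

/-- A mixed pure pair gives transvections. -/
theorem trans_of_pair (T : TS M ω s pu C) {v u : B} (hu : s u u ≠ 0) (hvu : s v u = 0) {α γ : A}
    (hαγ : γ ∉ Submodule.span F {α}) {d : F} (hd : d ≠ 0) (hX : spX (pu α v) (pu γ u) d ∈ M) (k : F) :
    spTrans (pu α v) k ∈ M := by
  obtain ⟨p, hp1, hp2⟩ := T.exists_sep hαγ
  rcases eq_or_ne k 0 with rfl | hk
  · rw [spTrans_zero]; exact M.one_mem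
  -- the coefficient of the commutator is linear in the parameter of the moving transvection
  set K := d * d * (ω γ p * ω p γ) * s u u with hK
  have hK0 : K ≠ 0 := by
    rw [hK, T.ωswap γ p]
    exact mul_ne_zero (mul_ne_zero (mul_ne_zero hd hd) (mul_ne_zero hp2 (neg_ne_zero.mpr hp2))) hu
  set t := k / (2 * K) with ht
  obtain ⟨h, hh, he⟩ := T.isom (tv ω p t) LinearMap.id (T.tv_isom p t) (fun _ _ => rfl)
  have hα : (h : Mat) *ᵥ pu α v = pu α v := by
    rw [he, tv_apply, hp1, mul_zero, zero_smul, add_zero, LinearMap.id_apply]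
  have hγ : (h : Mat) *ᵥ pu γ u = pu (γ + (t * ω γ p) • p) u := by
    rw [he, tv_apply, LinearMap.id_apply]
  set γ' := γ + (t * ω γ p) • p
  have hY := T.spX_conj_mem hh hX
  rw [hα, hγ] at hY
  have hxz : β (pu α v) (pu γ u) = 0 := by rw [T.form, hvu, mul_zero]
  have hxz' : β (pu α v) (pu γ' u) = 0 := by rw [T.form, hvu, mul_zero]
  have hzr : β (pu γ u) (pu α v) = 0 := by rw [beta_swap (pu α v), hxz, neg_zero]
  rw [spX_comm_sym hxz'] at hY
  have hmem := M.mul_mem (M.mul_mem (M.mul_mem hX hY) (M.inv_mem hX)) (M.inv_mem hY)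
  rw [spX_commutator hxz (by rw [beta_swap (pu α v), hxz', neg_zero]) hxz' (beta_self _) hzr, spX_self] at hmem
  convert hmem using 2
  rw [T.form]
  simp only [γ', map_add, map_smul, LinearMap.add_apply, LinearMap.smul_apply, smul_eq_mul, T.alt]
  rw [show (2 : F) * (d * d * ((0 + t * ω γ p * ω p γ) * s u u)) = t * (2 * K) by rw [hK]; ring, ht,
    div_mul_cancel₀ _ (mul_ne_zero T.two hK0)]

/-- A pure short root element gives transvections with a pure non-singular centre. -/
theorem exists_trans (T : TS M ω s pu C) (hB : 5 ≤ finrank F B) {x : V} (hx : x ≠ 0) {a : A} (ha : a ≠ 0)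
    {u : B} (hu : s u u ≠ 0) (hC : C u x = 0) {c : F} (hc : c ≠ 0) (hX : spX x (pu a u) c ∈ M) :
    ∃ (v : B) (α : A), α ≠ 0 ∧ s v v ≠ 0 ∧ ∀ k : F, spTrans (pu α v) k ∈ M := by
  obtain ⟨v, α, d, hα, hd, hv, hvu, hE⟩ := T.exists_pure_pair hx ha hu hC hc hX
  by_cases hαa : a ∈ Submodule.span F {α}
  swap
  · exact ⟨v, α, hα, hv, T.trans_of_pair hu hvu hαa hd hE⟩
  obtain ⟨l, rfl⟩ := Submodule.mem_span_singleton.mp hαa
  have hl : l ≠ 0 := fun h => ha (by rw [h, zero_smul])
  have huv : s u v = 0 := by rw [T.sym]; exact hvu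
  have hb0 : β (pu α v) (pu α u) = 0 := by rw [T.form, hvu, mul_zero]
  rw [map_smul, LinearMap.smul_apply, spX_smul_right hb0] at hE
  obtain ⟨w, -, hwu, hwv, hww⟩ := T.exists_third hB hu hv huv (s v v)
  -- move `v` to `w` and `α` to an independent vector
  obtain ⟨p, hp, -⟩ := T.exists_pairing hα hα
  set α' := α + ω α p • p with hα'
  have hαα' : ω α α' ≠ 0 := by
    rw [hα', map_add, map_smul, T.alt, zero_add, smul_eq_mul]
    exact mul_ne_zero hp hp
  have hvw : s (v - w) (v - w) ≠ 0 := by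
    simp only [map_sub, LinearMap.sub_apply, T.sym v w, hwv, hww, sub_zero, zero_sub, sub_neg_eq_add]
    rw [← two_mul]; exact mul_ne_zero T.two hv
  obtain ⟨h, hh, he⟩ := T.isom (tv ω p 1) (refl s (v - w)) (T.tv_isom p 1) (T.refl_isom hvw)
  have hv' : refl s (v - w) v = w := by
    rw [refl_apply]
    have e1 : s v (v - w) = s v v := by rw [map_sub, T.sym v w, hwv, sub_zero]
    have e2 : s (v - w) (v - w) = 2 * s v v := by
      simp only [map_sub, LinearMap.sub_apply, T.sym v w, hwv, hww]; ring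
    have h2 := T.two
    rw [e1, e2, show 2 / (2 * s v v) * s v v = 1 by field_simp, one_smul, sub_sub_cancel]
  have hu' : refl s (v - w) u = u := by
    rw [refl_apply, show s u (v - w) = 0 by rw [map_sub, huv, T.sym u w, hwu, sub_zero], mul_zero, zero_smul,
      sub_zero]
  have hF := T.spX_conj_mem hh hE
  rw [he, he, hv', hu', show tv ω p 1 α = α' by rw [tv_apply, one_mul]] at hF
  have hb1 : β (pu α' w) (pu α' u) = 0 := by rw [T.form, hwu, mul_zero]
  rw [spX_comm_sym hb1] at hF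
  have hmem := M.mul_mem (M.mul_mem (M.mul_mem hE hF) (M.inv_mem hE)) (M.inv_mem hF)
  rw [spX_commutator hb0 (by rw [beta_swap (pu α' w), hb1, neg_zero]) (by rw [T.form, hvu, mul_zero])
    (by rw [T.form, T.sym v w, hwv, mul_zero]) (by rw [T.form, T.sym u w, hwu, mul_zero])] at hmem
  refine ⟨v, α, hα, hv, T.trans_of_pair (v := v) (u := w) (by rw [hww]; exact hv) (by rw [T.sym]; exact hwv)
    (γ := α') (fun hm => ?_) ?_ hmem⟩
  · obtain ⟨e, he'⟩ := Submodule.mem_span_singleton.mp hm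
    rw [← he', map_smul, T.alt, smul_zero] at hαα'
    exact hαα' rfl
  · rw [T.form, T.ωswap α α']
    exact mul_ne_zero (mul_ne_zero (mul_ne_zero hl hd) (mul_ne_zero hl hd))
      (mul_ne_zero (neg_ne_zero.mpr hαα') hu)

/-- One transvection with a pure non-singular centre generates everything. -/
theorem sp_le_of_trans (T : TS M ω s pu C) (hB : 5 ≤ finrank F B) {v : B} (hv : s v v ≠ 0) {α : A} (hα : α ≠ 0)
    (htr : ∀ k : F, spTrans (pu α v) k ∈ M) : Cfsg.spGL m F ≤ M := by
  classical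
  let Cs : Set V := {y | ∀ k, spTrans y k ∈ M}
  have hsmul : ∀ (k : F), ∀ y ∈ Cs, k • y ∈ Cs := fun k y hy d => by rw [spTrans_smul]; exact hy _
  have hconj : ∀ g ∈ M, ∀ y ∈ Cs, (g : Mat) *ᵥ y ∈ Cs := fun g hg y hy d => by
    rw [← conj_spTrans (T.sp hg)]; exact M.mul_mem (M.mul_mem hg (hy d)) (M.inv_mem hg)
  have hadd : ∀ y ∈ Cs, ∀ z ∈ Cs, β y z ≠ 0 → y + z ∈ Cs := fun y hy z hz hyz => by
    have := hconj _ (hz (β y z)⁻¹) y hy
    rwa [spTrans_mulVec, inv_mul_cancel₀ hyz, one_smul] at this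
  -- first factor
  have hA : ∀ x : A, x ≠ 0 → ∀ w : B, pu α w ∈ Cs → pu x w ∈ Cs := by
    have step : ∀ y x : A, ω y x ≠ 0 → ∀ w : B, pu y w ∈ Cs → pu x w ∈ Cs := by
      intro y x hyx w hw
      obtain ⟨h, hh, he⟩ := T.isom (tv ω (x - y) (ω y x)⁻¹) LinearMap.id (T.tv_isom _ _) (fun _ _ => rfl)
      have := hconj h hh _ hw
      rwa [he, tv_apply, map_sub, T.alt, sub_zero, inv_mul_cancel₀ hyx, one_smul, add_sub_cancel,
        LinearMap.id_apply] at this
    intro x hx w hw
    obtain ⟨p, hp1, hp2⟩ := T.exists_pairing hα hx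
    exact step p x (by rw [T.ωswap x p]; exact neg_ne_zero.mpr hp2) w (step α p hp1 w hw)
  -- second factor
  have hBw : ∀ w : B, s w w = s v v → pu α w ∈ Cs := by
    intro w hw
    have key : ∀ w : B, s w w = s v v → s (v - w) (v - w) ≠ 0 → pu α w ∈ Cs := by
      intro w hw hne
      obtain ⟨h, hh, he⟩ := T.isom LinearMap.id (refl s (v - w)) (fun _ _ => rfl) (T.refl_isom hne)
      have := hconj h hh _ htr
      rw [he, refl_apply, LinearMap.id_apply] at this
      have e : 2 / s (v - w) (v - w) * s v (v - w) = 1 := by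
        rw [div_mul_eq_mul_div, div_eq_one_iff_eq hne]
        simp only [map_sub, LinearMap.sub_apply, T.sym v w, hw]
        ring
      rwa [e, one_smul, sub_sub_cancel] at this
    by_cases hne : s (v - w) (v - w) = 0
    swap
    · exact key w hw hne
    have h2 : s (v - -w) (v - -w) ≠ 0 := by
      intro h
      simp only [map_sub, map_neg, LinearMap.sub_apply, LinearMap.neg_apply, T.sym v w, hw] at h hne
      exact hv ((mul_eq_zero.mp (show (2 : F) * 2 * s v v = 0 by linear_combination h + hne)).resolve_left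
        (mul_ne_zero T.two T.two))
    have := hsmul (-1) _ (key (-w) (by simpa using hw) h2)
    simpa using this
  let Ts : Set V := {y | ∃ (x : A) (w : B), x ≠ 0 ∧ s w w = s v v ∧ y = pu x w}
  have hTC : Ts ⊆ Cs := fun y hy => by obtain ⟨x, w, hx, hw, rfl⟩ := hy; exact hA x hx w (hBw w hw)
  refine spGL_le_of_spTrans M fun y k => ?_
  rcases eq_or_ne y 0 with rfl | hy
  · rw [spTrans_zero_vec]; exact M.one_mem
  have hne0 : ∀ (x : A) (w : B), x ≠ 0 → s w w ≠ 0 → pu x w ≠ 0 := fun x w hx hw he => by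
    have := congrArg (C w) he
    rw [T.C_pu, map_zero] at this
    exact (smul_eq_zero.mp this).elim hw hx
  refine closed_univ T.two (C := Cs) (T := Ts) hsmul hadd hTC ?_ ?_ (z₀ := pu α v) ⟨α, v, hα, rfl, rfl⟩
    (hne0 α v hα hv) y hy k
  · intro y hy
    refine T.eq_zero_of_C fun u => T.ωnd _ fun x => ?_
    rcases eq_or_ne x 0 with rfl | hx
    · rw [map_zero]
    have hw : ∀ w : B, s w w = s v v → ω x (C w y) = 0 := fun w hw => by
      rw [← T.beta_pu]; exact hy _ ⟨x, w, hx, hw, rfl⟩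
    -- the vectors of the given norm span
    let W : Submodule F B := LinearMap.ker ((ω x).comp (C.flip y))
    have hW : ∀ w, s w w = s v v → w ∈ W := hw
    have horth : ∀ p, s p v = 0 → s p p ≠ 0 → p ∈ W := by
      intro p hpv hp
      have hvp : s v p = 0 := by rw [T.sym]; exact hpv
      obtain ⟨q, -, hqv, hqp, hqq⟩ := T.exists_third hB hv hp hvp (- s p p)
      have hvq : s v q = 0 := by rw [T.sym]; exact hqv
      have hpq : s p q = 0 := by rw [T.sym]; exact hqp
      have m1 := hW (v + p + q) (by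
        simp only [map_add, LinearMap.add_apply, hvp, hpv, hqv, hqp, hqq, hvq, hpq]; ring)
      have m2 := hW (v - p + q) (by
        simp only [map_add, map_sub, LinearMap.add_apply, LinearMap.sub_apply, hvp, hpv, hqv, hqp, hqq, hvq, hpq]
        ring)
      have := W.sub_mem m1 m2
      rw [show v + p + q - (v - p + q) = (2 : F) • p by module] at this
      exact (W.smul_mem_iff T.two).mp this
    have hns : ∃ p ∈ LinearMap.ker (s v), s p p ≠ 0 := by
      obtain ⟨p, -, hp1, -, hp⟩ : ∃ p, p ≠ 0 ∧ s p v = 0 ∧ s p v = 0 ∧ s p p = s v v := by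
        obtain ⟨p, hp0, hp, hpc⟩ := exists_perp_value s T.sym T.two T.snd ![v] (fun i => by simpa using hv)
          (fun i j hij => absurd (Subsingleton.elim i j) hij) (by omega) (s v v)
        exact ⟨p, hp0, by simpa using hp 0, by simpa using hp 0, hpc⟩
      exact ⟨p, by rw [LinearMap.mem_ker, T.sym, hp1], by rw [hp]; exact hv⟩
    have hker : LinearMap.ker (s v) ≤ W := by
      by_contra hle
      obtain ⟨p, hp, hpW, hp0⟩ := exists_nonsingular_notMem s T.sym T.two _ W hns hle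
      exact hpW (horth p (by rw [T.sym]; exact hp) hp0)
    have hu : u ∈ W := by
      have e : u = (s v u / s v v) • v + (u - (s v u / s v v) • v) := by abel
      rw [e]
      refine W.add_mem (W.smul_mem _ (hW v rfl)) (hker ?_)
      simp [div_mul_cancel₀ _ hv]
    have := LinearMap.mem_ker.mp hu
    rw [T.ωswap x (C u y)]
    simpa using this
  · rintro S ⟨t₀, ⟨x₀, w₀, hx₀, hw₀, rfl⟩, ht₀S, -⟩ hS t ⟨x, w, hx, hw, rfl⟩
    have meet : ∀ (x x' : A) (w w' : B), x ≠ 0 → x' ≠ 0 → s w w = s v v → s w' w' = s v v → pu x w ∈ S →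
        ω x x' ≠ 0 → s w w' ≠ 0 → pu x' w' ∈ S := fun x x' w w' hx hx' hw hw' hm h1 h2 =>
      hS _ ⟨x, w, hx, hw, rfl⟩ hm _ ⟨x', w', hx', hw', rfl⟩ (by rw [T.form]; exact mul_ne_zero h1 h2)
    -- a vector of the given norm meeting both
    obtain ⟨w'', hw'', h1, h2⟩ : ∃ w'', s w'' w'' = s v v ∧ s w₀ w'' ≠ 0 ∧ s w'' w ≠ 0 := by
      by_cases h0 : s w₀ w = 0
      swap
      · exact ⟨w₀, hw₀, by rw [hw₀]; exact hv, h0⟩
      obtain ⟨q, -, hq1, hq2, hqq⟩ := T.exists_third hB (by rw [hw₀]; exact hv) (by rw [hw]; exact hv) h0 (- s v v)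
      have h0' : s w w₀ = 0 := by rw [T.sym]; exact h0
      have hq1' : s w₀ q = 0 := by rw [T.sym]; exact hq1
      have hq2' : s w q = 0 := by rw [T.sym]; exact hq2
      refine ⟨w₀ + w + q, ?_, ?_, ?_⟩
      · simp only [map_add, LinearMap.add_apply, h0, h0', hq1, hq1', hq2, hq2', hqq, hw, hw₀]; ring
      · simp only [map_add, h0, hq1', add_zero, hw₀]; exact hv
      · simp only [map_add, LinearMap.add_apply, h0, hq2, add_zero, zero_add, hw]; exact hv
    obtain ⟨p, hp1, hp2⟩ := T.exists_pairing hx₀ hx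
    have hp0 : p ≠ 0 := fun h => hp1 (by rw [h, map_zero])
    exact meet p x w'' w hp0 hx hw'' hw (meet x₀ p w₀ w'' hx₀ hp0 hw₀ hw'' ht₀S hp1 h1)
      (by rw [T.ωswap x p]; exact neg_ne_zero.mpr hp2) h2

/-- A short root element with a pure non-singular parameter generates the symplectic group. -/
theorem sp_le_of_root (T : TS M ω s pu C) (hB : 5 ≤ finrank F B) {x : V} (hx : x ≠ 0) {a : A} (ha : a ≠ 0)
    {u : B} (hu : s u u ≠ 0) (hC : C u x = 0) {c : F} (hc : c ≠ 0) (hX : spX x (pu a u) c ∈ M) :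
    Cfsg.spGL m F ≤ M := by
  obtain ⟨v, α, hα, hv, htr⟩ := T.exists_trans hB hx ha hu hC hc hX
  exact T.sp_le_of_trans hB hv hα htr

end Cfsg.Agent.H25.GeoLists.TS
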