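import Cfsg.Agent.H25.GeoLists.SpTensor.Root

/-!
A short root element with a pure parameter generates, for a second factor of dimension at least three and
at least five scalars.
-/

set_option autoImplicit false
set_option linter.unusedSectionVars false

namespace Cfsg.Agent.H25.GeoLists

open scoped Matrix
open Cfsg.Agent.H98 Module

attribute [-simp] Cfsg.Agent.H2.sympBilin_apply

/-- A binary form takes a non-zero value with non-zero first coordinate, for at least five scalars. -/
theorem exists_binary_value_ne {F : Type*} [Field F] [Fintype F] {a b c : F} (ha : a ≠ 0) (hb : b ≠ 0) (hc : c ≠ 0)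
    (h2 : (2 : F) ≠ 0) (hq : 5 ≤ Fintype.card F) : ∃ x y : F, x ≠ 0 ∧ a * x ^ 2 + b * y ^ 2 = c := by
  classical
  obtain ⟨x, y, h⟩ := exists_binary_value ha hb h2 c
  by_cases hx : x = 0
  swap
  · exact ⟨x, y, hx, h⟩
  have hy : y ≠ 0 := fun hy => hc (by rw [← h, hx, hy]; ring)
  obtain ⟨t, ht, htd⟩ : ∃ t : F, t ≠ 0 ∧ a + b * t ^ 2 ≠ 0 := by
    by_contra hcon
    push Not at hcon
    have h1 : a + b = 0 := by simpa using hcon 1 one_ne_zero
    obtain ⟨t, ht⟩ : ∃ t : F, t ∉ ({0, 1, -1} : Finset F) := by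
      by_contra hall
      push Not at hall
      have := Finset.card_le_card (fun z _ => hall z : (Finset.univ : Finset F) ⊆ {0, 1, -1})
      have := Finset.card_le_three (a := (0 : F)) (b := 1) (c := -1)
      rw [Finset.card_univ] at *
      omega
    simp only [Finset.mem_insert, Finset.mem_singleton, not_or] at ht
    have h3 := hcon t ht.1
    have : (t - 1) * (t + 1) = 0 :=
      (mul_eq_zero.mp (show b * ((t - 1) * (t + 1)) = 0 by linear_combination h3 - h1)).resolve_left hb
    exact (mul_eq_zero.mp this).elim (fun h => ht.2.1 (sub_eq_zero.mp h))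
      (fun h => ht.2.2 (eq_neg_of_add_eq_zero_left h))
  refine ⟨-(2 * b * y * t) / (a + b * t ^ 2), y + t * (-(2 * b * y * t) / (a + b * t ^ 2)),
    div_ne_zero (neg_ne_zero.mpr (mul_ne_zero (mul_ne_zero (mul_ne_zero h2 hb) hy) ht)) htd, ?_⟩
  rw [← h, hx]
  field_simp
  ring

/-- Squares span additively. -/
theorem exists_sq_sub_sq {F : Type*} [Field F] (h2 : (2 : F) ≠ 0) (c : F) : ∃ x y : F, c = x ^ 2 - y ^ 2 :=
  ⟨(c + 1) / 2, (c - 1) / 2, by field_simp; ring⟩

namespace TS

variable {m : ℕ} {F : Type*} [Field F] {A B : Type*} [AddCommGroup A] [Module F A] [AddCommGroup B] [Module F B]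
variable {M : Subgroup (GL (Fin m ⊕ Fin m) F)} {ω : A →ₗ[F] A →ₗ[F] F} {s : B →ₗ[F] B →ₗ[F] F}
  {pu : A →ₗ[F] B →ₗ[F] (Fin m ⊕ Fin m → F)} {C : B →ₗ[F] (Fin m ⊕ Fin m → F) →ₗ[F] A}
  [Fintype F] [FiniteDimensional F A] [FiniteDimensional F B]

local notation "V" => (Fin m ⊕ Fin m → F)
local notation "Mat" => Matrix (Fin m ⊕ Fin m) (Fin m ⊕ Fin m) F
local notation "β" => Cfsg.Agent.H2.sympBilin m F

theorem exists_scale (T : TS M ω s pu C) (hq : 5 ≤ Fintype.card F) {a : A} (ha : a ≠ 0) (l : F) (hl : l ≠ 0) :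
    ∃ g : A →ₗ[F] A, (∀ x y, ω (g x) (g y) = ω x y) ∧ g a = l • a := by
  obtain ⟨y, hy, -⟩ := T.exists_pairing ha ha
  set a' := (ω a y)⁻¹ • y
  have h1 : ω a a' = 1 := by rw [map_smul, smul_eq_mul, inv_mul_cancel₀ hy]
  have h1' : ω a' a = -1 := by rw [T.ωswap a a', h1]
  refine ⟨LinearMap.id + (l - 1) • ((ω.flip a').smulRight a) - (l⁻¹ - 1) • ((ω.flip a).smulRight a'),
    fun x z => ?_, ?_⟩
  · simp only [LinearMap.add_apply, LinearMap.sub_apply, LinearMap.id_apply, LinearMap.smul_apply,
      LinearMap.smulRight_apply, LinearMap.flip_apply, map_add, map_sub, map_smul, smul_eq_mul, T.alt, h1, h1',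
      T.ωswap z a, T.ωswap z a', T.ωswap x a, T.ωswap x a']
    field_simp
    ring
  · simp [h1, T.alt, sub_smul]

/-- The coefficients of a pure pair with one first parameter. -/
theorem scalar_pair (T : TS M ω s pu C) (hq : 5 ≤ Fintype.card F) {α : A} (hα : α ≠ 0) {v z : B} (hvz : s v z = 0)
    {d : F} (hd : d ≠ 0) (hX : spX (pu α v) (pu α z) d ∈ M) (c : F) : spX (pu α v) (pu α z) c ∈ M := by
  have hb : β (pu α v) (pu α z) = 0 := by rw [T.form, T.alt, zero_mul]
  have hsq : ∀ l : F, spX (pu α v) (pu α z) (l ^ 2 * d) ∈ M := by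
    intro l
    rcases eq_or_ne l 0 with rfl | hl
    · rw [show (0 : F) ^ 2 * d = d + -d by ring, ← spX_add hb, ← spX_inv hb]
      exact M.mul_mem hX (M.inv_mem hX)
    obtain ⟨g, hg, hga⟩ := T.exists_scale hq hα l hl
    obtain ⟨h, hh, he⟩ := T.isom g LinearMap.id hg (fun _ _ => rfl)
    have := T.spX_conj_mem hh hX
    rw [he, he, hga, LinearMap.id_apply, LinearMap.id_apply, map_smul, LinearMap.smul_apply, LinearMap.smul_apply,
      spX_smul_left (by rw [map_smul, hb, smul_zero]), spX_smul_right hb] at this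
    convert this using 2
    ring
  obtain ⟨x, y, hxy⟩ := exists_sq_sub_sq T.two (c / d)
  have : c = x ^ 2 * d + -(y ^ 2 * d) := by
    rw [← sub_eq_add_neg, ← sub_mul, ← hxy, div_mul_cancel₀ _ hd]
  rw [this, ← spX_add hb, ← spX_inv hb]
  exact M.mul_mem (hsq x) (M.inv_mem (hsq y))

/-- The second parameter of a pure pair moves through the orthogonal plane. -/
theorem pair_move (T : TS M ω s pu C) (hq : 5 ≤ Fintype.card F) {α : A} (hα : α ≠ 0) {v u w : B} (hu : s u u ≠ 0)
    (hw : s w w ≠ 0) (hvu : s v u = 0) (hvw : s v w = 0) (huw : s u w = 0)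
    (hX : ∀ c, spX (pu α v) (pu α u) c ∈ M) (c : F) : spX (pu α v) (pu α w) c ∈ M := by
  classical
  have hwu : s w u = 0 := by rw [T.sym]; exact huw
  have hb : ∀ z, β (pu α v) (pu α z) = 0 := fun z => by rw [T.form, T.alt, zero_mul]
  obtain ⟨t, ht⟩ : ∃ t : F, t ∉ ({0} : Finset F) ∪ Finset.univ.filter fun t => s w w + t * t * s u u = 0 := by
    by_contra hall
    push Not at hall
    have h1 := Finset.card_le_card (fun z _ => hall z : (Finset.univ : Finset F) ⊆ _)
    have h2' : (Finset.univ.filter fun t : F => s w w + t * t * s u u = 0).card ≤ 2 := by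
      by_cases he : ∃ t₀ : F, s w w + t₀ * t₀ * s u u = 0
      · obtain ⟨t₀, h0⟩ := he
        refine (Finset.card_le_card (t := {t₀, -t₀}) fun t ht => ?_).trans Finset.card_le_two
        simp only [Finset.mem_filter, Finset.mem_univ, true_and] at ht
        have := (mul_eq_zero.mp (show s u u * ((t - t₀) * (t + t₀)) = 0 by linear_combination ht - h0)).resolve_left hu
        rcases mul_eq_zero.mp this with h | h
        · simp [sub_eq_zero.mp h]
        · simp [eq_neg_of_add_eq_zero_left h]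
      · push Not at he
        simp [he]
    have h3 := Finset.card_union_le ({0} : Finset F) (Finset.univ.filter fun t => s w w + t * t * s u u = 0)
    simp only [Finset.card_univ, Finset.card_singleton] at *
    omega
  simp only [Finset.mem_union, Finset.mem_singleton, Finset.mem_filter, Finset.mem_univ, true_and, not_or] at ht
  set p := w + t • u with hp
  have hpp : s p p = s w w + t * t * s u u := by
    simp only [hp, map_add, map_smul, LinearMap.add_apply, LinearMap.smul_apply, smul_eq_mul, hwu, huw]; ring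
  have hpp0 : s p p ≠ 0 := by rw [hpp]; exact ht.2
  have hvp : s v p = 0 := by rw [hp, map_add, map_smul, hvw, hvu, smul_zero, add_zero]
  have hup : s u p = t * s u u := by rw [hp, map_add, map_smul, huw, zero_add, smul_eq_mul]
  obtain ⟨h, hh, he⟩ := T.isom LinearMap.id (refl s p) (fun _ _ => rfl) (T.refl_isom hpp0)
  set k := 2 / s p p * s u p with hk
  have hk0 : k ≠ 0 := by rw [hk, hup]; exact mul_ne_zero (div_ne_zero T.two hpp0) (mul_ne_zero ht.1 hu)
  have hp' : ∀ c, spX (pu α v) (pu α p) c ∈ M := by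
    intro c
    have h1 := T.spX_conj_mem hh (hX (-(c / k)))
    rw [he, he, refl_apply, refl_apply, hvp, mul_zero, zero_smul, sub_zero, LinearMap.id_apply] at h1
    have h2 := M.mul_mem (hX (c / k)) h1
    have e : spX (pu α v) (pu α (u - k • p)) (-(c / k)) = spX (pu α v) (pu α (k • p - u)) (c / k) := by
      rw [show u - k • p = (-1 : F) • (k • p - u) by module, map_smul, spX_smul_right (hb _), neg_one_mul, neg_neg]
    rw [← hk, e, spX_add_right (hb u) (hb _), ← map_add, show u + (k • p - u) = k • p by abel, map_smul (pu α),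
      spX_smul_right (hb p), mul_div_cancel₀ _ hk0, T.form, T.alt, zero_mul, mul_zero, spTrans_zero, mul_one] at h2
    exact h2
  have := M.mul_mem (hp' c) (hX (-(c * t)))
  rw [show spX (pu α v) (pu α u) (-(c * t)) = spX (pu α v) ((-t) • pu α u) c by
      rw [spX_smul_right (hb u)]; congr 1; ring,
    spX_add_right (hb p) (by rw [map_smul, hb, smul_zero]), ← map_smul, ← map_add,
    show p + (-t) • u = w by rw [hp]; module, T.form, T.alt, zero_mul, mul_zero, spTrans_zero, mul_one] at this
  exact this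

/-- A pure short root element gives transvections, for at least five scalars. -/
theorem exists_trans₅ (T : TS M ω s pu C) (hB : 3 ≤ finrank F B) (hq : 5 ≤ Fintype.card F) {x : V} (hx : x ≠ 0)
    {a : A} (ha : a ≠ 0) {u : B} (hu : s u u ≠ 0) (hC : C u x = 0) {c : F} (hc : c ≠ 0)
    (hX : spX x (pu a u) c ∈ M) : ∃ (v : B) (α : A), α ≠ 0 ∧ s v v ≠ 0 ∧ ∀ k : F, spTrans (pu α v) k ∈ M := by
  obtain ⟨v, α, d, hα, hd, hv, hvu, hE⟩ := T.exists_pure_pair hx ha hu hC hc hX
  by_cases hαa : a ∈ Submodule.span F {α}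
  swap
  · exact ⟨v, α, hα, hv, T.trans_of_pair hu hvu hαa hd hE⟩
  obtain ⟨l, rfl⟩ := Submodule.mem_span_singleton.mp hαa
  have hl : l ≠ 0 := fun h => ha (by rw [h, zero_smul])
  have huv : s u v = 0 := by rw [T.sym]; exact hvu
  have hb0 : ∀ y z, β (pu α y) (pu α z) = 0 := fun y z => by rw [T.form, T.alt, zero_mul]
  rw [map_smul, LinearMap.smul_apply, spX_smul_right (hb0 _ _)] at hE
  have hall := T.scalar_pair hq hα hvu (mul_ne_zero hl hd) hE
  obtain ⟨w, hw, hww⟩ := exists_perp s T.sym T.two T.snd ![u, v] (fun i => by fin_cases i <;> simpa)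
    (fun i j hij => by fin_cases i <;> fin_cases j <;> simp_all) (by omega)
  have hwu : s w u = 0 := by simpa using hw 0
  have hwv : s w v = 0 := by simpa using hw 1
  have huw : s u w = 0 := by rw [T.sym]; exact hwu
  have hvw : s v w = 0 := by rw [T.sym]; exact hwv
  have hall' : ∀ c, spX (pu α u) (pu α w) c ∈ M := T.pair_move hq hα hv hww huv huw hvw
    (fun c => by rw [spX_comm_sym (hb0 _ _)]; exact hall c)
  obtain ⟨p, hp, -⟩ := T.exists_pairing hα hα
  set α' := α + ω α p • p with hα'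
  have hαα' : ω α α' ≠ 0 := by
    rw [hα', map_add, map_smul, T.alt, zero_add, smul_eq_mul]
    exact mul_ne_zero hp hp
  obtain ⟨h, hh, he⟩ := T.isom (tv ω p 1) LinearMap.id (T.tv_isom p 1) (fun _ _ => rfl)
  have hF := T.spX_conj_mem hh (hall' 1)
  rw [he, he, show tv ω p 1 α = α' by rw [tv_apply, one_mul], LinearMap.id_apply, LinearMap.id_apply] at hF
  have hb1 : β (pu α' u) (pu α' w) = 0 := by rw [T.form, T.alt, zero_mul]
  have hmem := M.mul_mem (M.mul_mem (M.mul_mem (hall 1) hF) (M.inv_mem (hall 1))) (M.inv_mem hF)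
  rw [spX_commutator (hb0 v u) hb1 (by rw [T.form, hvu, mul_zero]) (by rw [T.form, hvw, mul_zero])
    (by rw [T.form, huw, mul_zero])] at hmem
  refine ⟨v, α, hα, hv, T.trans_of_pair (v := v) (u := w) hww hvw (γ := α') (fun hm => ?_) ?_ hmem⟩
  · obtain ⟨e, he'⟩ := Submodule.mem_span_singleton.mp hm
    rw [← he', map_smul, T.alt, smul_zero] at hαα'
    exact hαα' rfl
  · rw [T.form, T.ωswap α α']
    exact mul_ne_zero (mul_ne_zero one_ne_zero one_ne_zero) (mul_ne_zero (neg_ne_zero.mpr hαα') hu)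

/-- One transvection with a pure non-singular centre generates, for at least five scalars. -/
theorem sp_le_of_trans₅ (T : TS M ω s pu C) (hB : 3 ≤ finrank F B) (hq : 5 ≤ Fintype.card F) {v : B}
    (hv : s v v ≠ 0) {α : A} (hα : α ≠ 0) (htr : ∀ k : F, spTrans (pu α v) k ∈ M) : Cfsg.spGL m F ≤ M := by
  classical
  let Cs : Set V := {y | ∀ k, spTrans y k ∈ M}
  have hsmul : ∀ (k : F), ∀ y ∈ Cs, k • y ∈ Cs := fun k y hy d => by rw [spTrans_smul]; exact hy _
  have hconj : ∀ g ∈ M, ∀ y ∈ Cs, (g : Mat) *ᵥ y ∈ Cs := fun g hg y hy d => by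
    rw [← conj_spTrans (T.sp hg)]; exact M.mul_mem (M.mul_mem hg (hy d)) (M.inv_mem hg)
  have hadd : ∀ y ∈ Cs, ∀ z ∈ Cs, β y z ≠ 0 → y + z ∈ Cs := fun y hy z hz hyz => by
    have := hconj _ (hz (β y z)⁻¹) y hy
    rwa [spTrans_mulVec, inv_mul_cancel₀ hyz, one_smul] at this
  -- first factor
  have hA : ∀ x : A, x ≠ 0 → ∀ w : B, pu α w ∈ Cs → pu x w ∈ Cs := by
    have step : ∀ y x : A, ω y x ≠ 0 → ∀ w : B, pu y w ∈ Cs → pu x w ∈ Cs := by
      intro y x hyx w hw
      obtain ⟨h, hh, he⟩ := T.isom (tv ω (x - y) (ω y x)⁻¹) LinearMap.id (T.tv_isom _ _) (fun _ _ => rfl)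
      have := hconj h hh _ hw
      rwa [he, tv_apply, map_sub, T.alt, sub_zero, inv_mul_cancel₀ hyx, one_smul, add_sub_cancel,
        LinearMap.id_apply] at this
    intro x hx w hw
    obtain ⟨p, hp1, hp2⟩ := T.exists_pairing hα hx
    exact step p x (by rw [T.ωswap x p]; exact neg_ne_zero.mpr hp2) w (step α p hp1 w hw)
  -- second factor
  have hBw : ∀ w : B, s w w = s v v → pu α w ∈ Cs := by
    intro w hw
    have key : ∀ w : B, s w w = s v v → s (v - w) (v - w) ≠ 0 → pu α w ∈ Cs := by
      intro w hw hne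
      obtain ⟨h, hh, he⟩ := T.isom LinearMap.id (refl s (v - w)) (fun _ _ => rfl) (T.refl_isom hne)
      have := hconj h hh _ htr
      rw [he, refl_apply, LinearMap.id_apply] at this
      have e : 2 / s (v - w) (v - w) * s v (v - w) = 1 := by
        rw [div_mul_eq_mul_div, div_eq_one_iff_eq hne]
        simp only [map_sub, LinearMap.sub_apply, T.sym v w, hw]
        ring
      rwa [e, one_smul, sub_sub_cancel] at this
    by_cases hne : s (v - w) (v - w) = 0
    swap
    · exact key w hw hne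
    have h2 : s (v - -w) (v - -w) ≠ 0 := by
      intro h
      simp only [map_sub, map_neg, LinearMap.sub_apply, LinearMap.neg_apply, T.sym v w, hw] at h hne
      exact hv ((mul_eq_zero.mp (show (2 : F) * 2 * s v v = 0 by linear_combination h + hne)).resolve_left
        (mul_ne_zero T.two T.two))
    have := hsmul (-1) _ (key (-w) (by simpa using hw) h2)
    simpa using this
  let Ts : Set V := {y | ∃ (x : A) (w : B), x ≠ 0 ∧ s w w = s v v ∧ y = pu x w}
  have hTC : Ts ⊆ Cs := fun y hy => by obtain ⟨x, w, hx, hw, rfl⟩ := hy; exact hA x hx w (hBw w hw)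
  refine spGL_le_of_spTrans M fun y k => ?_
  rcases eq_or_ne y 0 with rfl | hy
  · rw [spTrans_zero_vec]; exact M.one_mem
  have hne0 : pu α v ≠ 0 := fun he => by
    have := congrArg (C v) he
    rw [T.C_pu, map_zero] at this
    exact (smul_eq_zero.mp this).elim hv hα
  have third : ∀ p q : B, s p p ≠ 0 → s q q ≠ 0 → s p q = 0 →
      ∃ r, s r r ≠ 0 ∧ s r p = 0 ∧ s r q = 0 := fun p q hp hq' hpq => by
    have hqp : s q p = 0 := by rw [T.sym]; exact hpq
    obtain ⟨r, hr, hrr⟩ := exists_perp s T.sym T.two T.snd ![p, q] (fun i => by fin_cases i <;> simpa)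
      (fun i j hij => by fin_cases i <;> fin_cases j <;> simp_all) (by omega)
    exact ⟨r, hrr, by simpa using hr 0, by simpa using hr 1⟩
  refine closed_univ T.two (C := Cs) (T := Ts) hsmul hadd hTC ?_ ?_ (z₀ := pu α v) ⟨α, v, hα, rfl, rfl⟩
    hne0 y hy k
  · intro y hy
    refine T.eq_zero_of_C fun u => T.ωnd _ fun x => ?_
    rcases eq_or_ne x 0 with rfl | hx
    · rw [map_zero]
    let W : Submodule F B := LinearMap.ker ((ω x).comp (C.flip y))
    have hW : ∀ w, s w w = s v v → w ∈ W := fun w hw => by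
      show ω x (C w y) = 0
      rw [← T.beta_pu]; exact hy _ ⟨x, w, hx, hw, rfl⟩
    have horth : ∀ p, s p v = 0 → s p p ≠ 0 → p ∈ W := by
      intro p hpv hp
      obtain ⟨r, hr, hrp, hrv⟩ := third p v hp hv hpv
      have hpr : s p r = 0 := by rw [T.sym]; exact hrp
      obtain ⟨e, f, he, hef⟩ := exists_binary_value_ne hp hr hv T.two hq
      have m1 := hW (e • p + f • r) (by
        simp only [map_add, map_smul, LinearMap.add_apply, LinearMap.smul_apply, smul_eq_mul, hrp, hpr]
        linear_combination hef)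
      have m2 := hW (e • p - f • r) (by
        simp only [map_add, map_sub, map_smul, LinearMap.add_apply, LinearMap.sub_apply, LinearMap.smul_apply,
          smul_eq_mul, hrp, hpr]
        linear_combination hef)
      have := W.add_mem m1 m2
      rw [show e • p + f • r + (e • p - f • r) = (2 * e) • p by module] at this
      exact (W.smul_mem_iff (mul_ne_zero T.two he)).mp this
    have hns : ∃ p ∈ LinearMap.ker (s v), s p p ≠ 0 := by
      obtain ⟨p, hp, hpp⟩ := exists_perp s T.sym T.two T.snd ![v] (fun i => by simpa using hv)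
        (fun i j hij => absurd (Subsingleton.elim i j) hij) (by omega)
      exact ⟨p, by rw [LinearMap.mem_ker, T.sym]; simpa using hp 0, hpp⟩
    have hker : LinearMap.ker (s v) ≤ W := by
      by_contra hle
      obtain ⟨p, hp, hpW, hp0⟩ := exists_nonsingular_notMem s T.sym T.two _ W hns hle
      exact hpW (horth p (by rw [T.sym]; exact hp) hp0)
    have hu : u ∈ W := by
      have e : u = (s v u / s v v) • v + (u - (s v u / s v v) • v) := by abel
      rw [e]
      refine W.add_mem (W.smul_mem _ (hW v rfl)) (hker ?_)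
      simp [div_mul_cancel₀ _ hv]
    have := LinearMap.mem_ker.mp hu
    rw [T.ωswap x (C u y)]
    simpa using this
  · rintro S ⟨t₀, ⟨x₀, w₀, hx₀, hw₀, rfl⟩, ht₀S, -⟩ hS t ⟨x, w, hx, hw, rfl⟩
    have meet : ∀ (x x' : A) (w w' : B), x ≠ 0 → x' ≠ 0 → s w w = s v v → s w' w' = s v v → pu x w ∈ S →
        ω x x' ≠ 0 → s w w' ≠ 0 → pu x' w' ∈ S := fun x x' w w' hx hx' hw hw' hm h1 h2 =>
      hS _ ⟨x, w, hx, hw, rfl⟩ hm _ ⟨x', w', hx', hw', rfl⟩ (by rw [T.form]; exact mul_ne_zero h1 h2)
    obtain ⟨w'', hw'', h1, h2⟩ : ∃ w'', s w'' w'' = s v v ∧ s w₀ w'' ≠ 0 ∧ s w'' w ≠ 0 := by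
      by_cases h0 : s w₀ w = 0
      swap
      · exact ⟨w₀, hw₀, by rw [hw₀]; exact hv, h0⟩
      have h0' : s w w₀ = 0 := by rw [T.sym]; exact h0
      obtain ⟨r, hr, hr1, hr2⟩ := third w₀ w (by rw [hw₀]; exact hv) (by rw [hw]; exact hv) h0
      have hr1' : s w₀ r = 0 := by rw [T.sym]; exact hr1
      have hr2' : s w r = 0 := by rw [T.sym]; exact hr2
      obtain ⟨e, he⟩ : ∃ e : F, e ∉ ({0, 1, -1} : Finset F) := by
        by_contra hall
        push Not at hall
        have := Finset.card_le_card (fun z _ => hall z : (Finset.univ : Finset F) ⊆ {0, 1, -1})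
        have := Finset.card_le_three (a := (0 : F)) (b := 1) (c := -1)
        rw [Finset.card_univ] at *
        omega
      simp only [Finset.mem_insert, Finset.mem_singleton, not_or] at he
      obtain ⟨f, g, hf, hfg⟩ := exists_binary_value_ne (a := s v v) (b := s r r) (c := s v v - e ^ 2 * s v v) hv hr
        (by
          rw [show s v v - e ^ 2 * s v v = (1 - e) * (1 + e) * s v v by ring]
          exact mul_ne_zero (mul_ne_zero (sub_ne_zero.mpr (Ne.symm he.2.1))
            (fun h => he.2.2 (eq_neg_of_add_eq_zero_right h))) hv) T.two hq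
      refine ⟨e • w₀ + f • w + g • r, ?_, ?_, ?_⟩
      · simp only [map_add, map_smul, LinearMap.add_apply, LinearMap.smul_apply, smul_eq_mul, h0, h0', hr1, hr1',
          hr2, hr2', hw, hw₀]
        linear_combination hfg
      · simp only [map_add, map_smul, smul_eq_mul, h0, hr1', hw₀, mul_zero, add_zero]
        exact mul_ne_zero he.1 hv
      · simp only [map_add, map_smul, LinearMap.add_apply, LinearMap.smul_apply, smul_eq_mul, h0, hr2, hw, mul_zero,
          add_zero, zero_add]
        exact mul_ne_zero hf hv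
    obtain ⟨p, hp1, hp2⟩ := T.exists_pairing hx₀ hx
    have hp0 : p ≠ 0 := fun h => hp1 (by rw [h, map_zero])
    exact meet p x w'' w hp0 hx hw'' hw (meet x₀ p w₀ w'' hx₀ hp0 hw₀ hw'' ht₀S hp1 h1)
      (by rw [T.ωswap x p]; exact neg_ne_zero.mpr hp2) h2

/-- A short root element with a pure non-singular parameter generates, for at least five scalars. -/
theorem sp_le_of_root₅ (T : TS M ω s pu C) (hB : 3 ≤ finrank F B) (hq : 5 ≤ Fintype.card F) {x : V} (hx : x ≠ 0)
    {a : A} (ha : a ≠ 0) {u : B} (hu : s u u ≠ 0) (hC : C u x = 0) {c : F} (hc : c ≠ 0)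
    (hX : spX x (pu a u) c ∈ M) : Cfsg.spGL m F ≤ M := by
  obtain ⟨v, α, hα, hv, htr⟩ := T.exists_trans₅ hB hq hx ha hu hC hc hX
  exact T.sp_le_of_trans₅ hB hq hv hα htr

end TS

end Cfsg.Agent.H25.GeoLists
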