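import Mathlib

/-!
Non-degenerate symmetric bilinear forms over finite fields of odd order: values and non-singular vectors.
-/

set_option autoImplicit false
set_option linter.unusedSectionVars false

namespace Cfsg.Agent.H25.GeoLists

open Module

variable {F B : Type*} [Field F] [AddCommGroup B] [Module F B]

/-- A symmetric form that is not zero on a subspace has a non-singular vector outside a smaller subspace. -/
theorem exists_nonsingular_notMem (s : B →ₗ[F] B →ₗ[F] F) (hs : ∀ u v, s u v = s v u) (h2 : (2 : F) ≠ 0)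
    (K L : Submodule F B) (hns : ∃ u ∈ K, s u u ≠ 0) (hKL : ¬ K ≤ L) : ∃ u ∈ K, u ∉ L ∧ s u u ≠ 0 := by
  obtain ⟨u₀, hu₀, h₀⟩ := hns
  by_cases hu₀L : u₀ ∈ L
  swap
  · exact ⟨u₀, hu₀, hu₀L, h₀⟩
  obtain ⟨k, hk, hkL⟩ := SetLike.not_le_iff_exists.mp hKL
  have hno : ∀ t : F, k + t • u₀ ∉ L := fun t h => hkL (by simpa using L.sub_mem h (L.smul_mem t hu₀L))
  by_contra hc
  push Not at hc
  have hz : ∀ t : F, s (k + t • u₀) (k + t • u₀) = 0 := fun t =>
    hc _ (K.add_mem hk (K.smul_mem t hu₀)) (hno t)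
  have e0 := hz 0
  have e1 := hz 1
  have e2 := hz (-1)
  simp only [map_add, map_smul, LinearMap.add_apply, LinearMap.smul_apply, smul_eq_mul, hs u₀ k, zero_mul, one_mul,
    add_zero, neg_one_mul, zero_smul, map_zero, LinearMap.zero_apply] at e0 e1 e2
  exact h₀ ((mul_eq_zero.mp (show (2 : F) * s u₀ u₀ = 0 by linear_combination e1 + e2 - 2 * e0)).resolve_left h2)

/-- A symmetric form vanishing on the diagonal of a subspace vanishes on it. -/
theorem apply_eq_zero_of_singular (s : B →ₗ[F] B →ₗ[F] F) (hs : ∀ u v, s u v = s v u) (h2 : (2 : F) ≠ 0)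
    {K : Submodule F B} (hK : ∀ u ∈ K, s u u = 0) {u v : B} (hu : u ∈ K) (hv : v ∈ K) : s u v = 0 := by
  have h := hK _ (K.add_mem hu hv)
  simp only [map_add, LinearMap.add_apply, hs v u, hK u hu, hK v hv, zero_add, add_zero] at h
  exact (mul_eq_zero.mp (show (2 : F) * s u v = 0 by linear_combination h)).resolve_left h2

/-- A binary diagonal form over a finite field of odd order takes every value. -/
theorem exists_binary_value [Fintype F] {a b : F} (ha : a ≠ 0) (hb : b ≠ 0) (h2 : (2 : F) ≠ 0) (c : F) :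
    ∃ x y : F, a * x ^ 2 + b * y ^ 2 = c := by
  have hodd : Fintype.card F % 2 = 1 := FiniteField.odd_card_of_char_ne_two fun hc => h2 (by
    haveI := ringChar.charP F
    have := CharP.cast_eq_zero F (ringChar F)
    rw [hc] at this
    exact_mod_cast this)
  obtain ⟨x, y, h⟩ := FiniteField.exists_root_sum_quadratic (R := F)
    (f := Polynomial.C a * Polynomial.X ^ 2 - Polynomial.C c) (g := Polynomial.C b * Polynomial.X ^ 2)
    (by compute_degree!) (Polynomial.degree_C_mul_X_pow 2 hb) hodd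
  refine ⟨x, y, ?_⟩
  simp only [Polynomial.eval_sub, Polynomial.eval_mul, Polynomial.eval_C, Polynomial.eval_pow,
    Polynomial.eval_X] at h
  linear_combination h

variable [FiniteDimensional F B]

/-- Orthogonal non-singular vectors that do not span extend by a non-singular vector. -/
theorem exists_perp (s : B →ₗ[F] B →ₗ[F] F) (hs : ∀ u v, s u v = s v u) (h2 : (2 : F) ≠ 0)
    (hnd : ∀ u, (∀ v, s u v = 0) → u = 0) {k : ℕ} (f : Fin k → B) (hn : ∀ i, s (f i) (f i) ≠ 0)
    (ho : ∀ i j, i ≠ j → s (f i) (f j) = 0) (hk : k < finrank F B) :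
    ∃ u, (∀ i, s u (f i) = 0) ∧ s u u ≠ 0 := by
  classical
  let T : B →ₗ[F] (Fin k → F) := LinearMap.pi fun i => s.flip (f i)
  have hT : ∀ u, u ∈ LinearMap.ker T ↔ ∀ i, s u (f i) = 0 := fun u => by
    simp [T, funext_iff]
  obtain ⟨x, hx, hx0⟩ := Submodule.exists_mem_ne_zero_of_ne_bot
    (LinearMap.ker_ne_bot_of_finrank_lt (f := T) (by simpa using hk))
  by_contra hc
  push Not at hc
  refine hx0 (hnd x fun y => ?_)
  have hy : y - ∑ i, (s y (f i) / s (f i) (f i)) • f i ∈ LinearMap.ker T := by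
    rw [hT]
    intro j
    rw [map_sub, map_sum, LinearMap.sub_apply, LinearMap.sum_apply, Finset.sum_eq_single j]
    · rw [map_smul, LinearMap.smul_apply, smul_eq_mul, div_mul_cancel₀ _ (hn j), sub_self]
    · intro i _ hij; rw [map_smul, LinearMap.smul_apply, ho i j hij, smul_zero]
    · simp
  have := apply_eq_zero_of_singular s hs h2 (fun u hu => hc u ((hT u).mp hu)) hx hy
  simpa [map_sub, map_sum, (hT x).mp hx] using this

/-- Orthogonal non-singular vectors leaving three dimensions leave every value on a non-zero vector. -/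
theorem exists_perp_value [Fintype F] (s : B →ₗ[F] B →ₗ[F] F) (hs : ∀ u v, s u v = s v u) (h2 : (2 : F) ≠ 0)
    (hnd : ∀ u, (∀ v, s u v = 0) → u = 0) {k : ℕ} (f : Fin k → B) (hn : ∀ i, s (f i) (f i) ≠ 0)
    (ho : ∀ i j, i ≠ j → s (f i) (f j) = 0) (hk : k + 3 ≤ finrank F B) (c : F) :
    ∃ v, v ≠ 0 ∧ (∀ i, s v (f i) = 0) ∧ s v v = c := by
  have ext : ∀ {n : ℕ} (g : Fin n → B) (u : B), (∀ i, s (g i) (g i) ≠ 0) → (∀ i j, i ≠ j → s (g i) (g j) = 0) →
      (∀ i, s u (g i) = 0) → s u u ≠ 0 → (∀ i, s ((Fin.cons u g : Fin (n + 1) → B) i) ((Fin.cons u g : Fin (n + 1) → B) i) ≠ 0) ∧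
      ∀ i j, i ≠ j → s ((Fin.cons u g : Fin (n + 1) → B) i) ((Fin.cons u g : Fin (n + 1) → B) j) = 0 := by
    intro n g u h1 h2' h3 h4
    refine ⟨fun i => ?_, fun i j hij => ?_⟩
    · refine Fin.cases h4 (fun l => ?_) i
      simpa using h1 l
    · induction i using Fin.cases <;> induction j using Fin.cases <;> simp_all
  obtain ⟨e₁, o₁, n₁⟩ := exists_perp s hs h2 hnd f hn ho (by omega)
  obtain ⟨hn₁, ho₁⟩ := ext f e₁ hn ho o₁ n₁
  obtain ⟨e₂, o₂, n₂⟩ := exists_perp s hs h2 hnd _ hn₁ ho₁ (by omega)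
  obtain ⟨hn₂, ho₂⟩ := ext _ e₂ hn₁ ho₁ o₂ n₂
  obtain ⟨e₃, o₃, n₃⟩ := exists_perp s hs h2 hnd _ hn₂ ho₂ (by omega)
  have o21 : s e₂ e₁ = 0 := by simpa using o₂ 0
  have o32 : s e₃ e₂ = 0 := by simpa using o₃ 0
  have o31 : s e₃ e₁ = 0 := by simpa using o₃ (Fin.succ 0)
  obtain ⟨x, y, h⟩ := exists_binary_value n₁ n₂ h2 (c - s e₃ e₃)
  refine ⟨x • e₁ + y • e₂ + e₃, fun e => n₃ ?_, fun i => ?_, ?_⟩
  · have := congrArg (fun z => s z e₃) e
    simpa [hs e₁ e₃, hs e₂ e₃, o31, o32] using this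
  · have a2 : s e₂ (f i) = 0 := by simpa using o₂ i.succ
    have a3 : s e₃ (f i) = 0 := by simpa using o₃ i.succ.succ
    simp [o₁ i, a2, a3]
  · simp only [map_add, map_smul, LinearMap.add_apply, LinearMap.smul_apply, smul_eq_mul, hs e₁ e₂, hs e₁ e₃,
      hs e₂ e₃, o21, o31, o32]
    linear_combination h

end Cfsg.Agent.H25.GeoLists
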