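import Cfsg.Agent.H98.MaximalSpPair
import Cfsg.Agent.H98.SpSubfieldBase
import Cfsg.Agent.H25.GeoLists.SpTensor.Values

/-!
An alternating form presented as the tensor product of an alternating and a symmetric form.
-/

set_option autoImplicit false
set_option linter.unusedSectionVars false

namespace Cfsg.Agent.H25.GeoLists

open scoped Matrix
open Cfsg.Agent.H98 Module

attribute [-simp] Cfsg.Agent.H2.sympBilin_apply

variable {m : ℕ} {F : Type*} [Field F] {A B : Type*} [AddCommGroup A] [Module F A] [AddCommGroup B] [Module F B]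

local notation "V" => (Fin m ⊕ Fin m → F)
local notation "Mat" => Matrix (Fin m ⊕ Fin m) (Fin m ⊕ Fin m) F
local notation "β" => Cfsg.Agent.H2.sympBilin m F

/-- A decomposition of the alternating form as a product, and a group containing its isometries. -/
structure TS (M : Subgroup (GL (Fin m ⊕ Fin m) F)) (ω : A →ₗ[F] A →ₗ[F] F) (s : B →ₗ[F] B →ₗ[F] F)
    (pu : A →ₗ[F] B →ₗ[F] V) (C : B →ₗ[F] V →ₗ[F] A) : Prop where
  two : (2 : F) ≠ 0
  alt : ∀ x, ω x x = 0
  sym : ∀ u v, s u v = s v u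
  ωnd : ∀ x, (∀ y, ω x y = 0) → x = 0
  snd : ∀ u, (∀ v, s u v = 0) → u = 0
  form : ∀ x u y v, β (pu x u) (pu y v) = ω x y * s u v
  adj : ∀ u v x, ω (C u v) x = β v (pu x u)
  span : ∀ v, (∀ x u, β v (pu x u) = 0) → v = 0
  sp : M ≤ Cfsg.spGL m F
  isom : ∀ (g : A →ₗ[F] A) (k : B →ₗ[F] B), (∀ x y, ω (g x) (g y) = ω x y) → (∀ u v, s (k u) (k v) = s u v) →
    ∃ h ∈ M, ∀ x u, (h : Mat) *ᵥ pu x u = pu (g x) (k u)

variable {M : Subgroup (GL (Fin m ⊕ Fin m) F)} {ω : A →ₗ[F] A →ₗ[F] F} {s : B →ₗ[F] B →ₗ[F] F}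
  {pu : A →ₗ[F] B →ₗ[F] (Fin m ⊕ Fin m → F)} {C : B →ₗ[F] (Fin m ⊕ Fin m → F) →ₗ[F] A}

/-- The reflection in a non-singular vector. -/
def refl (s : B →ₗ[F] B →ₗ[F] F) (u : B) : B →ₗ[F] B :=
  LinearMap.id - (2 / s u u) • ((s.flip u).smulRight u)

theorem refl_apply (u v : B) : refl s u v = v - (2 / s u u * s v u) • u := by
  simp [refl, smul_smul]

/-- The transvection along a vector. -/
def tv (ω : A →ₗ[F] A →ₗ[F] F) (p : A) (c : F) : A →ₗ[F] A :=
  LinearMap.id + c • ((ω.flip p).smulRight p)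

theorem tv_apply (p : A) (c : F) (x : A) : tv ω p c x = x + (c * ω x p) • p := by
  simp [tv, smul_smul]

namespace TS

theorem ωswap (T : TS M ω s pu C) (x y : A) : ω y x = - ω x y := by
  have h := T.alt (x + y)
  simp only [map_add, LinearMap.add_apply, T.alt, zero_add, add_zero] at h
  linear_combination h

theorem C_pu (T : TS M ω s pu C) (u : B) (x : A) (w : B) : C u (pu x w) = s w u • x := by
  rw [← sub_eq_zero]
  refine T.ωnd _ fun y => ?_
  rw [map_sub, map_smul, LinearMap.sub_apply, LinearMap.smul_apply, T.adj, T.form, smul_eq_mul]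
  ring

theorem ωext (T : TS M ω s pu C) {x y : A} (h : ∀ z, ω x z = ω y z) : x = y := by
  rw [← sub_eq_zero]
  exact T.ωnd _ fun z => by rw [map_sub, LinearMap.sub_apply, h, sub_self]

theorem eq_zero_of_C (T : TS M ω s pu C) {v : V} (h : ∀ u, C u v = 0) : v = 0 :=
  T.span v fun x u => by rw [← T.adj, h, map_zero, LinearMap.zero_apply]

theorem beta_pu (T : TS M ω s pu C) (v : V) (x : A) (u : B) : β (pu x u) v = ω x (C u v) := by
  rw [beta_swap v (pu x u), ← T.adj, T.ωswap x (C u v)]; ring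

/-- Linear maps agreeing on the pure tensors are equal. -/
theorem ext_pu (T : TS M ω s pu C) {W : Type*} [AddCommGroup W] [Module F W] {f g : V →ₗ[F] W}
    (h : ∀ x u, f (pu x u) = g (pu x u)) : f = g := by
  refine LinearMap.ext fun v => sub_eq_zero.mp ((Module.forall_dual_apply_eq_zero_iff F _).mp fun φ => ?_)
  set l : V →ₗ[F] F := φ.comp (f - g) with hl
  obtain ⟨z, hz⟩ : ∃ z, ∀ y, β z y = l y := ⟨((β).toDual (Cfsg.Agent.H2.sympBilin_nondegenerate m F)).symm l,
    fun y => LinearMap.BilinForm.apply_toDual_symm_apply l y⟩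
  have hz0 : z = 0 := T.span z fun x u => by rw [hz, hl]; simp [h]
  simpa [hz0, hl] using (hz v).symm

theorem isom_mulVec (T : TS M ω s pu C) {h : GL (Fin m ⊕ Fin m) F} {L : V →ₗ[F] V}
    (he : ∀ x u, (h : Mat) *ᵥ pu x u = L (pu x u)) (v : V) : (h : Mat) *ᵥ v = L v :=
  congrArg (fun f => f v) (T.ext_pu (f := Matrix.mulVecLin (h : Mat)) (g := L) he)

theorem refl_isom (T : TS M ω s pu C) {u : B} (hu : s u u ≠ 0) (v w : B) :
    s (refl s u v) (refl s u w) = s v w := by
  simp only [refl_apply, map_sub, map_smul, LinearMap.sub_apply, LinearMap.smul_apply, smul_eq_mul]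
  rw [T.sym u w]
  field_simp
  ring

theorem tv_isom (T : TS M ω s pu C) (p : A) (c : F) (x y : A) : ω (tv ω p c x) (tv ω p c y) = ω x y := by
  simp only [tv_apply, map_add, map_smul, LinearMap.add_apply, LinearMap.smul_apply, smul_eq_mul, T.alt,
    T.ωswap y p]
  ring

/-- The involution belonging to a non-singular vector. -/
theorem exists_z (T : TS M ω s pu C) {u : B} (hu : s u u ≠ 0) :
    ∃ z ∈ M, ∀ v : V, (z : Mat) *ᵥ v = v - (2 / s u u) • pu (C u v) u := by
  obtain ⟨z, hz, he⟩ := T.isom LinearMap.id (refl s u) (fun _ _ => rfl) (T.refl_isom hu)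
  refine ⟨z, hz, fun v => T.isom_mulVec (L := LinearMap.id - (2 / s u u) • ((pu.flip u).comp (C u))) (fun x w => ?_) v⟩
  rw [he, refl_apply]
  simp [T.C_pu, smul_smul]

/-- A vector orthogonal to `p` but not to `γ`, for independent `p` and `γ`. -/
theorem exists_sep (T : TS M ω s pu C) [FiniteDimensional F A] {α γ : A} (h : γ ∉ Submodule.span F {α}) :
    ∃ p, ω α p = 0 ∧ ω γ p ≠ 0 := by
  by_contra hc
  push Not at hc
  have hle : LinearMap.ker (ω α) ≤ LinearMap.ker (ω γ) := fun p hp => hc p hp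
  obtain ⟨c, hcc⟩ : ∃ c : F, c • ω α = ω γ := by
    by_cases ha : ω α = 0
    · refine ⟨0, ?_⟩
      rw [zero_smul]
      exact LinearMap.ext fun p => (hle (by simp [ha] : p ∈ LinearMap.ker (ω α))).symm
    obtain ⟨p₀, hp₀⟩ : ∃ p, ω α p ≠ 0 := by
      by_contra hc'; push Not at hc'; exact ha (LinearMap.ext hc')
    refine ⟨ω γ p₀ / ω α p₀, LinearMap.ext fun p => ?_⟩
    have hk : p - (ω α p / ω α p₀) • p₀ ∈ LinearMap.ker (ω α) := by
      simp [div_mul_cancel₀ _ hp₀]
    have := LinearMap.mem_ker.mp (hle hk)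
    rw [map_sub, map_smul, smul_eq_mul, sub_eq_zero] at this
    rw [LinearMap.smul_apply, smul_eq_mul, this]
    field_simp
  exact h (Submodule.mem_span_singleton.mpr ⟨c, T.ωext fun z => by rw [map_smul, ← hcc]⟩)

/-- A vector pairing non-trivially with two given non-zero vectors. -/
theorem exists_pairing (T : TS M ω s pu C) {x y : A} (hx : x ≠ 0) (hy : y ≠ 0) :
    ∃ p, ω x p ≠ 0 ∧ ω y p ≠ 0 := by
  obtain ⟨p, hp⟩ : ∃ p, ω x p ≠ 0 := by by_contra h; push Not at h; exact hx (T.ωnd x h)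
  obtain ⟨q, hq⟩ : ∃ q, ω y q ≠ 0 := by by_contra h; push Not at h; exact hy (T.ωnd y h)
  by_cases hyp : ω y p = 0
  swap
  · exact ⟨p, hp, hyp⟩
  by_cases hxq : ω x q = 0
  swap
  · exact ⟨q, hxq, hq⟩
  exact ⟨p + q, by simp [hxq, hp], by simp [hyp, hq]⟩

/-- A non-singular vector orthogonal to two orthogonal ones, of given norm. -/
theorem exists_third (T : TS M ω s pu C) [Fintype F] [FiniteDimensional F B] (hB : 5 ≤ finrank F B) {u v : B}
    (hu : s u u ≠ 0) (hv : s v v ≠ 0) (huv : s u v = 0) (c : F) :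
    ∃ w, w ≠ 0 ∧ s w u = 0 ∧ s w v = 0 ∧ s w w = c := by
  have hvu : s v u = 0 := by rw [T.sym]; exact huv
  obtain ⟨w, hw0, hw, hwc⟩ := exists_perp_value s T.sym T.two T.snd ![u, v]
    (fun i => by fin_cases i <;> simpa) (fun i j hij => by fin_cases i <;> fin_cases j <;> simp_all) (by omega) c
  exact ⟨w, hw0, by simpa using hw 0, by simpa using hw 1, hwc⟩

end TS

end Cfsg.Agent.H25.GeoLists
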